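import Cfsg.Agent.H78.QTFat
import Cfsg.Agent.H37.InvTwD4
import Cfsg.Agent.H37.InvTwF4
import Cfsg.Agent.H37.InvG2
import Cfsg.Agent.H37.InvE7
import Cfsg.Agent.H37.InvE8
import Cfsg.Agent.H34.TwG2

/-! Quasithin programme: the exceptional groups of Lie type are on the list or fat; the members of `IsExcE`
have 3-rank at least two. -/

set_option autoImplicit false
set_option maxRecDepth 100000
set_option maxHeartbeats 400000

namespace Cfsg.Agent.H78.QTE

open Cfsg Cfsg.Lie Subgroup Cfsg.Agent.H81.QT Cfsg.Agent.H37 Cfsg.Agent.H34 Cfsg.Agent.H34.Cert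

universe u

section General

variable {D : ChevalleyDatum} {C : Cert D} {F : Type*} [Field F] {S : Type*} [Group S]

theorem xg_pow (r : ℕ) (t : F) (n : ℕ) : C.xg F r t ^ n = C.xg F r (n * t) := by
  induction n with
  | zero => simp [xg_zero]
  | succ n ih => rw [pow_succ, ih, ← xg_add]; congr 1; push_cast; ring

/-- distinct positive roots whose commutator constants are multiples of `m` -/
def CmL (D : ChevalleyDatum) (m : ℤ) (L : List ℕ) : Prop := L.Nodup ∧ (∀ r ∈ L, D.IsPosRoot r) ∧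
  ∀ r ∈ L, ∀ s ∈ L, r = s ∨ (s ≠ D.neg r ∧ ∀ c ∈ D.commTerms r s, m ∣ c.2.1)

instance (D : ChevalleyDatum) (m : ℤ) (L : List ℕ) : Decidable (CmL D m L) := by unfold CmL; infer_instance

theorem CmL.commute {m : ℤ} {L : List ℕ} (h : CmL D m L) (hm : (m : F) = 0) {r s : ℕ} (hr : r ∈ L) (hs : s ∈ L)
    (t u : F) : Commute (C.xg F r t) (C.xg F s u) := by
  by_cases e : r = s
  · subst e
    rw [Commute, SemiconjBy, ← xg_add, ← xg_add, add_comm]
  obtain ⟨h1, h2⟩ := (h.2.2 r hr s hs).resolve_left e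
  rw [Commute, SemiconjBy, xg_comm (h.2.1 r hr).1 (h.2.1 s hs).1 (Ne.symm e) h1, List.prod_eq_one, mul_one]
  intro x hx
  obtain ⟨p, hp, rfl⟩ := List.mem_map.1 hx
  obtain ⟨c, hc, rfl⟩ := List.mem_map.1 hp
  obtain ⟨k, hk⟩ := h2 c hc
  rw [hk, Int.cast_mul, hm, zero_mul, zero_mul, zero_mul, xg_zero]

variable (C F) in
/-- the subgroup generated by the root subgroups of a list -/
def UL (L : List ℕ) : Subgroup (D.group F) := closure {g | ∃ r ∈ L, ∃ t, g = C.xg F r t}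

theorem xg_mem_UL {L : List ℕ} {r : ℕ} (hr : r ∈ L) (t : F) : C.xg F r t ∈ UL C F L :=
  subset_closure ⟨r, hr, t, rfl⟩

theorem CmL.ea {m : ℤ} {L : List ℕ} (h : CmL D m L) (hm : (m : F) = 0) (p : ℕ) [CharP F p] :
    IsElementaryAbelian p (UL C F L) := by
  refine ea_closure ?_ ?_
  · rintro _ ⟨r, hr, t, rfl⟩ _ ⟨s, hs, u, rfl⟩
    exact h.commute hm hr hs t u
  · rintro _ ⟨r, -, t, rfl⟩
    rw [xg_pow, CharP.cast_eq_zero, zero_mul, xg_zero]

theorem fin_cast_inj (p : ℕ) [CharP F p] {a b : Fin p} (e : ((a : ℕ) : F) = (b : ℕ)) : a = b :=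
  Fin.ext (CharP.natCast_injOn_Iio F p a.2 b.2 e)

variable (j : S →* D.group F) (hj : Function.Injective j)
include hj

theorem fat_four [Finite S] {p : ℕ} (hp : p.Prime) (h2 : p ≠ 2) [CharP F p] {a b c d : ℕ}
    (h : CmL D 0 [a, b, c, d]) (hm : ∀ r ∈ [a, b, c, d], C.xg F r 1 ∈ j.range) : Fat S := by
  refine fat_of_card j hj hp h2 (h.ea (C := C) Int.cast_zero p) (T := Fin p × Fin p × Fin p × Fin p)
    (fun v => C.wg F [(a, (v.1 : ℕ)), (b, (v.2.1 : ℕ)), (c, (v.2.2.1 : ℕ)), (d, (v.2.2.2 : ℕ))])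
    (fun v w e => ?_) (fun v => ⟨wg_mem fun x hx => xg_mem_UL (List.mem_map_of_mem (f := Prod.fst) hx) _,
      wg_mem ?_⟩) (by simp only [Nat.card_prod, Nat.card_fin]; exact le_of_eq (by ring))
  · have := wg_inj (C := C) (w := [(a, ((v.1 : ℕ) : F)), (b, (v.2.1 : ℕ)), (c, (v.2.2.1 : ℕ)), (d, (v.2.2.2 : ℕ))])
      (w' := [(a, ((w.1 : ℕ) : F)), (b, (w.2.1 : ℕ)), (c, (w.2.2.1 : ℕ)), (d, (w.2.2.2 : ℕ))]) rfl h.1 h.2.1 e
    simp only [List.cons.injEq, Prod.mk.injEq, true_and, and_true] at this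
    exact Prod.ext (fin_cast_inj p this.1) (Prod.ext (fin_cast_inj p this.2.1)
      (Prod.ext (fin_cast_inj p this.2.2.1) (fin_cast_inj p this.2.2.2)))
  · have : ∀ r ∈ [a, b, c, d], ∀ n : ℕ, C.xg F r n ∈ j.range := fun r hr n => by
      simpa [xg_pow] using pow_mem (hm r hr) n
    simp only [List.forall_mem_cons, List.not_mem_nil, IsEmpty.forall_iff, implies_true, and_true] at this ⊢
    exact ⟨this.1 _, this.2.1 _, this.2.2.1 _, this.2.2.2 _⟩

omit hj

/-- the check that two words generate a copy of `S₃` in characteristic two -/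
def S3ok (T : Tab D) (X Y : List ℕ) : Prop := X.Nodup ∧ X ≠ [] ∧ (∀ r ∈ X, D.IsPosRoot r) ∧
  (∀ r ∈ Y, D.IsNegRoot r) ∧ T.weq (X ++ X) [] = true ∧ T.weq (Y ++ Y) [] = true ∧
    T.weq (X ++ Y ++ X) (Y ++ X ++ Y) = true

noncomputable instance (T : Tab D) (X Y : List ℕ) : Decidable (S3ok T X Y) := by unfold S3ok; infer_instance

/-- the check that two pairs of words commute in characteristic two -/
def Cmok (T : Tab D) (X Y X' Y' : List ℕ) : Prop := ∀ A ∈ [X, Y], ∀ B ∈ [X', Y'], T.weq (A ++ B) (B ++ A) = true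

noncomputable instance (T : Tab D) (X Y X' Y' : List ℕ) : Decidable (Cmok T X Y X' Y') := by
  unfold Cmok; infer_instance

variable [CharP F 2]

theorem S3ok.s3 {T : Tab D} {X Y : List ℕ} (h : S3ok T X Y) : S3 (xl C F X) (xl C F Y) := by
  obtain ⟨h1, h2, h3, h4, h5, h6, h7⟩ := h
  refine ⟨(xl_append _ _).symm.trans (T.xl_eq h5), (xl_append _ _).symm.trans (T.xl_eq h6), ?_, fun e => ?_⟩
  · simpa only [xl_append] using T.xl_eq (C := C) (F := F) h7
  · refine xl_ne_one (C := C) (F := F) h1 h3 h2 (Split.eq_one_of_U_V (P := C.split F)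
      (wg_mem_Up (by simpa [Function.comp_def] using h3)) ?_)
    rw [eq_inv_of_mul_eq_one_left e]
    exact inv_mem (wg_mem_Vn (by simpa [Function.comp_def] using h4))

theorem Cmok.cm {T : Tab D} {X Y X' Y' : List ℕ} (h : Cmok T X Y X' Y') :
    Cm (xl C F X) (xl C F Y) (xl C F X') (xl C F Y') := by
  have : ∀ A ∈ [X, Y], ∀ B ∈ [X', Y'], Commute (xl C F A) (xl C F B) := fun A hA B hB => by
    rw [Commute, SemiconjBy, ← xl_append, ← xl_append]
    exact T.xl_eq (h A hA B hB)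
  exact ⟨this _ (by simp) _ (by simp), this _ (by simp) _ (by simp), this _ (by simp) _ (by simp),
    this _ (by simp) _ (by simp)⟩

/-- three commuting copies of `S₃` -/
def Ok3 (T : Tab D) (a a' b b' c c' : ℕ) : Prop := S3ok T [a] [a'] ∧ S3ok T [b] [b'] ∧ S3ok T [c] [c'] ∧
  Cmok T [a] [a'] [b] [b'] ∧ Cmok T [a] [a'] [c] [c'] ∧ Cmok T [b] [b'] [c] [c']

noncomputable instance (T : Tab D) (a a' b b' c c' : ℕ) : Decidable (Ok3 T a a' b b' c c') := by
  unfold Ok3; infer_instance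

/-- two commuting copies of `S₃` -/
def Ok2 (T : Tab D) (X Y X' Y' : List ℕ) : Prop := S3ok T X Y ∧ S3ok T X' Y' ∧ Cmok T X Y X' Y'

noncomputable instance (T : Tab D) (X Y X' Y' : List ℕ) : Decidable (Ok2 T X Y X' Y') := by
  unfold Ok2; infer_instance

include hj

theorem Ok3.fat {T : Tab D} {a a' b b' c c' : ℕ} (h : Ok3 T a a' b b' c c')
    (hm : ∀ r ∈ [a, a', b, b', c, c'], C.xg F r 1 ∈ j.range) : Fat S :=
  fat_of_S3 j hj (h.1.s3 (C := C)) h.2.1.s3 h.2.2.1.s3 h.2.2.2.1.cm h.2.2.2.2.1.cm h.2.2.2.2.2.cm (by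
    simpa [xl] using hm)

theorem Ok2.rk2 {T : Tab D} {X Y X' Y' : List ℕ} (h : Ok2 T X Y X' Y')
    (hm : ∀ A ∈ [X, Y, X', Y'], xl C F A ∈ j.range) : Rk2 S :=
  rk2_of_S3 j hj (h.1.s3 (C := C)) h.2.1.s3 h.2.2.cm (mul_mem (hm _ (by simp)) (hm _ (by simp)))
    (mul_mem (hm _ (by simp)) (hm _ (by simp)))

end General

/-! ### Tables -/

theorem cmG2 : CmL chevG2 0 [9, 10, 11] := by decide +kernel
theorem cmG2' : CmL chevG2 3 [8, 9, 10, 11] := by decide +kernel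
theorem cmD4 : CmL chevD4 0 [20, 21, 17, 23] := by decide +kernel
theorem cmF4 : CmL chevF4 0 [43, 45, 46, 47] := by decide +kernel
theorem cmE6 : CmL chevE6 0 [65, 69, 70, 71] := by decide +kernel
theorem cmE7 : CmL chevE7 0 [122, 123, 124, 125] := by decide +kernel
theorem cmE8 : CmL chevE8 0 [236, 237, 238, 239] := by decide +kernel
theorem okF4 : Ok3 tabF4 25 22 30 17 41 6 := by decide +kernel
theorem okE6 : Ok3 tabE6 39 32 44 27 60 11 := by decide +kernel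
theorem okE7 : Ok3 tabE7 93 32 78 47 66 59 := by decide +kernel
theorem okE8 : Ok3 tabE8 162 77 141 98 126 113 := by decide +kernel
theorem okG2 : Ok2 tabG2 [7] [4] [11] [0] := by decide +kernel
theorem okD4 : Ok2 tabD4 [18, 13, 12] [5, 10, 11] [23] [0] := by decide +kernel
theorem okTF4 : Ok2 tabF4 [33, 24] [14, 23] [39, 45] [8, 2] := by decide +kernel

/-! ### The families -/

variable {S : Type*} [Group S]

theorem range_top {G : Type*} [Group G] (e : S ≃* G) (g : G) : g ∈ e.toMonoidHom.range := ⟨e.symm g, by simp⟩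

theorem mem_range_comp {G H : Type*} [Group G] [Group H] (e : S ≃* G) (f : G →* H) {x : H} (hx : x ∈ f.range) :
    x ∈ (f.comp e.toMonoidHom).range := by
  obtain ⟨g, rfl⟩ := hx
  exact ⟨e.symm g, by simp⟩

theorem fat_chev [Finite S] {D : ChevalleyDatum} (C : Cert D) {T : Tab D} {a b c d a₁ a₂ b₁ b₂ c₁ c₂ : ℕ}
    (h1 : CmL D 0 [a, b, c, d]) (h2 : Ok3 T a₁ a₂ b₁ b₂ c₁ c₂) (h : D.IsGroupOver S) : Fat S := by
  obtain ⟨F, _, _, ⟨e⟩⟩ := h
  obtain ⟨p, hc, -, hp, -⟩ := FiniteField.card' F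
  by_cases e2 : p = 2
  · subst e2
    exact h2.fat (C := C) e.toMonoidHom e.injective fun _ _ => range_top e _
  · exact fat_four (C := C) e.toMonoidHom e.injective hp e2 h1 fun _ _ => range_top e _

theorem fat_2E6 [Finite S] (h : Iso2E6 S) : Fat S := by
  obtain ⟨K, _, _, q, hq, hK, ⟨e⟩⟩ := h
  obtain ⟨φ, hφ, h2, -⟩ := exists_frob2 hq hK
  let X := twE6 φ h2 hφ
  have hm : ∀ r ∈ [65, 69, 70, 71, 39, 32, 44, 27, 60, 11],
      cE6.xg K r 1 ∈ (X.j.comp e.toMonoidHom).range := fun r hr =>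
    mem_range_comp e _ (X.j_range.ge (E6_xg_mem φ h2 ((by decide +kernel : ∀ r ∈ [65, 69, 70, 71, 39, 32, 44, 27, 60, 11],
      r < chevE6.nroots ∧ piT grTE6 r = r ∧ etaT grTE6 r = 1) r hr) (map_one φ)))
  obtain ⟨p, hc, -, hp, -⟩ := FiniteField.card' K
  by_cases e2 : p = 2
  · subst e2
    exact okE6.fat (C := cE6) _ (X.j_inj.comp e.injective) fun r hr => hm r (List.mem_append_right [65, 69, 70, 71] hr)
  · exact fat_four (C := cE6) _ (X.j_inj.comp e.injective) hp e2 cmE6 fun r hr =>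
      hm r (List.mem_append_left [39, 32, 44, 27, 60, 11] hr)

theorem hg_neg_one {D : ChevalleyDatum} (C : Cert D) {F : Type*} [Field F] {s r : ℕ} (hs : s < D.nroots)
    (hr : r < D.nroots) : (Odd (D.pairing s r) → C.hg F s (-1) * C.xg F r 1 * (C.hg F s (-1))⁻¹ = (C.xg F r 1)⁻¹) ∧
      (C.hg F s (-1) * C.xg F r 1 * (C.hg F s (-1))⁻¹ = C.xg F r 1 ∨
        C.hg F s (-1) * C.xg F r 1 * (C.hg F s (-1))⁻¹ = (C.xg F r 1)⁻¹) := by
  rw [hg_conj hs hr (neg_ne_zero.2 one_ne_zero), ← xg_neg, mul_one]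
  refine ⟨fun h => by rw [h.neg_one_zpow], ?_⟩
  rcases Int.even_or_odd (D.pairing s r) with h | h
  · rw [h.neg_one_zpow]; exact Or.inl rfl
  · rw [h.neg_one_zpow]; exact Or.inr rfl

theorem list_G2 (h : IsoChevG2 S) : IsExcE S ∨ Fat S := by
  obtain ⟨F, _, _, hF, ⟨e⟩⟩ := h
  obtain ⟨p, hc, n, hp, hn⟩ := FiniteField.card' F
  by_cases e2 : p = 2
  · subst e2
    refine Or.inl (Or.inl ⟨F, inferInstance, inferInstance, hc, ?_, ⟨e⟩⟩)
    rcases hF.eq_or_lt with h3 | h3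
    · rw [← h3] at hn
      have : 2 ∣ 3 := hn ▸ dvd_pow_self 2 n.ne_zero
      omega
    · exact h3
  have hx : ∀ r, cG2.xg F r 1 ^ p = 1 := fun r => by rw [xg_pow, CharP.cast_eq_zero, zero_mul, xg_zero]
  refine Or.inr (fat_of_three' e.toMonoidHom e.injective hp e2 (range_top e (cG2.xg F 9 1))
    (range_top e (cG2.xg F 10 1)) (range_top e (cG2.xg F 11 1))
    (cmG2.commute Int.cast_zero (by simp) (by simp) _ _) (cmG2.commute Int.cast_zero (by simp) (by simp) _ _)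
    (cmG2.commute Int.cast_zero (by simp) (by simp) _ _) (hx _) (hx _) (hx _) (fun i k l h1 => ?_) ?_)
  · have := wg_inj (C := cG2) (w := [(9, (i : F)), (10, k), (11, l)]) (w' := [(9, 0), (10, 0), (11, 0)]) rfl
      cmG2.1 cmG2.2.1 (by simpa [xg_pow, xg_zero] using h1)
    simpa [CharP.cast_eq_zero_iff F p] using this
  · have h1 : ∀ s ∈ [6, 7], ∀ g' ∈ [cG2.xg F 9 1, cG2.xg F 10 1, cG2.xg F 11 1],
        cG2.hg F s (-1) * g' * (cG2.hg F s (-1))⁻¹ = g' ∨ cG2.hg F s (-1) * g' * (cG2.hg F s (-1))⁻¹ = g'⁻¹ := by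
      simp only [List.forall_mem_cons, List.not_mem_nil, IsEmpty.forall_iff, implies_true, and_true]
      refine ⟨⟨?_, ?_, ?_⟩, ?_, ?_, ?_⟩ <;> exact (hg_neg_one cG2 (by decide) (by decide)).2
    rw [List.forall_mem_cons, List.forall_mem_cons, List.forall_mem_cons]
    exact ⟨⟨_, range_top e _, (hg_neg_one cG2 (s := 7) (by decide) (by decide)).1 (by decide +kernel), h1 7 (by simp)⟩,
      ⟨_, range_top e _, (hg_neg_one cG2 (s := 7) (by decide) (by decide)).1 (by decide +kernel), h1 7 (by simp)⟩,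
      ⟨_, range_top e _, (hg_neg_one cG2 (s := 6) (by decide) (by decide)).1 (by decide +kernel), h1 6 (by simp)⟩,
      by simp⟩

theorem D4_short {K : Type*} [Field K] (φ : K →+* K) (h3 : ∀ t, φ (φ (φ t)) = t) (t : K) :
    cD4.wg K [(20, t), (21, φ t), (17, -φ (φ t))] ∈ (tD4 φ h3).G1 := by
  refine (tD4 φ h3).Up_le_G1 ⟨wg_mem_Up fun r hr => cmD4.2.1 r (List.mem_append_left [23] hr), ?_⟩
  obtain ⟨a1, a2, a3, b1, b2, b3⟩ : piT grTD4a 20 = 21 ∧ piT grTD4a 21 = 17 ∧ piT grTD4a 17 = 20 ∧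
    etaT grTD4a 20 = 1 ∧ etaT grTD4a 21 = -1 ∧ etaT grTD4a 17 = -1 := by decide +kernel
  have hf : ∀ r t, (sD4 φ).f r t = (etaT grTD4a r : K) * φ t := fun _ _ => rfl
  show (sD4 φ).σ _ = cD4.wg K _
  simp only [wg_cons, wg_nil, map_mul, mul_one]
  rw [(sD4 φ).map 20 (by decide), (sD4 φ).map 21 (by decide), (sD4 φ).map 17 (by decide), a1, a2, a3, hf, hf, hf,
    b1, b2, b3]
  simp only [Int.cast_one, one_mul, Int.cast_neg, neg_mul, map_neg, mul_neg, neg_neg, h3]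
  rw [← mul_assoc]
  exact ((cmD4.commute (C := cD4) Int.cast_zero (by simp) (by simp) _ _).mul_right
    (cmD4.commute Int.cast_zero (by simp) (by simp) _ _)).symm.eq

theorem list_3D4 [Finite S] (h : Iso3D4 S) : IsExcE S ∨ Fat S := by
  obtain ⟨K, _, _, q, hq, hK, ⟨e⟩⟩ := h
  obtain ⟨φ, hφ, h3, -⟩ := exists_frob3 hq hK
  obtain ⟨p, n, hp, hn, rfl⟩ := (isPrimePow_nat_iff q).1 hq
  by_cases e2 : p = 2
  · subst e2
    exact Or.inl (Or.inr (Or.inl ⟨K, _, _, n, hn, hK, ⟨e⟩⟩))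
  have : Fact p.Prime := ⟨hp⟩
  have hc : CharP K p := charP_of_card_eq_prime_pow (f := n * 3) (by rw [hK, pow_mul])
  let X := twD4 φ h3 hφ
  refine Or.inr (fat_of_card (X.j.comp e.toMonoidHom) (X.j_inj.comp e.injective) hp e2
    (cmD4.ea (C := cD4) Int.cast_zero p) (T := K × Fin p)
    (fun v => cD4.wg K [(20, v.1), (21, φ v.1), (17, -φ (φ v.1)), (23, (v.2 : ℕ))]) (fun v w e => ?_)
    (fun v => ⟨wg_mem fun x hx => xg_mem_UL (List.mem_map_of_mem (f := Prod.fst) hx) _,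
      mem_range_comp e _ (X.j_range.ge ?_)⟩) ?_)
  · have := wg_inj (C := cD4) (w := [(20, v.1), (21, φ v.1), (17, -φ (φ v.1)), (23, (v.2 : ℕ))])
      (w' := [(20, w.1), (21, φ w.1), (17, -φ (φ w.1)), (23, (w.2 : ℕ))]) rfl cmD4.1 cmD4.2.1 e
    simp only [List.cons.injEq, Prod.mk.injEq, true_and, and_true] at this
    exact Prod.ext this.1 (fin_cast_inj p this.2.2.2)
  · have := mul_mem (D4_short φ h3 v.1) (D4_xg_mem φ h3 (r := 23) (by decide +kernel) (map_natCast φ v.2))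
    show _ ∈ (tD4 φ h3).G1
    simpa only [wg_cons, wg_nil, mul_one, mul_assoc] using this
  · rw [Nat.card_prod, Nat.card_fin, Nat.card_eq_fintype_card, hK, ← pow_mul, ← pow_succ]
    exact Nat.pow_le_pow_right hp.pos (by omega)

theorem fat_ree [Finite S] (h : IsoRee S) : Fat S := by
  obtain ⟨K, _, _, m, hm, hK, ⟨e⟩⟩ := h
  have : Fact (Nat.Prime 3) := ⟨Nat.prime_three⟩
  obtain ⟨_, θ, hθ, h3⟩ := exists_theta hK
  let X := twG2 θ h3 hθ
  refine fat_of_card (X.j.comp e.toMonoidHom) (X.j_inj.comp e.injective) Nat.prime_three (by norm_num)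
    (cmG2'.ea (C := cG2) (by exact_mod_cast CharP.cast_eq_zero K 3) 3) (T := K × K)
    (fun v => cG2.wg K (wG2 θ 0 v.1 v.2)) (fun v w e => ?_)
    (fun v => ⟨?_, mem_range_comp e _ (X.j_range.ge (G2_mem θ h3 0 v.1 v.2).1)⟩) ?_
  · exact Prod.ext (wG2_inj θ e).2.1 (wG2_inj θ e).2.2
  · simp only [wG2, wg_cons, wg_nil, map_zero, xg_zero, one_mul, mul_one]
    exact mul_mem (xg_mem_UL (by simp) _) (mul_mem (xg_mem_UL (by simp) _)
      (mul_mem (xg_mem_UL (by simp) _) (xg_mem_UL (by simp) _)))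
  · rw [Nat.card_prod, Nat.card_eq_fintype_card, hK, ← pow_add]
    exact Nat.pow_le_pow_right (by norm_num) (by omega)

/-- The exceptional groups of Lie type are on the list or fat. -/
theorem listFor_exc : ListFor.{u} (fun S _ => IsExceptionalLieType S) := by
  intro S _ _ _ _ h
  have ex : IsExcE S → OnList S := fun h => Or.inr (Or.inr (Or.inr (Or.inl h)))
  rcases h with h | h | h | h | h | h | h | h | h | h | h
  · exact (list_G2 h).imp_left ex
  · exact Or.inr (fat_chev cF4 cmF4 okF4 h)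
  · exact Or.inr (fat_chev cE6 cmE6 okE6 h)
  · exact Or.inr (fat_chev (cert (by simp)) cmE7 okE7 h)
  · exact Or.inr (fat_chev (cert (by simp)) cmE8 okE8 h)
  · exact Or.inr (fat_2E6 h)
  · exact (list_3D4 h).imp_left ex
  · exact Or.inl (Or.inl (Or.inr (Or.inr h)))
  · exact Or.inr (fat_ree h)
  · exact Or.inl (ex (Or.inr (Or.inr (Or.inl h))))
  · exact Or.inl (ex (Or.inr (Or.inr (Or.inr h))))

theorem blkD4 : ∀ A ∈ [[18, 13, 12], [5, 10, 11], [23], [0]], tabD4.Blk (piT grTD4a) A := by decide +kernel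

theorem blkF4 : ∀ A ∈ [[33, 24], [14, 23], [39, 45], [8, 2]], tabF4.Blk (nthN rhoF4) A ∧
    tabF4.weq (A ++ A) [] = true := by decide +kernel

theorem tits_mem : ∀ A ∈ [[33, 24], [14, 23], [39, 45], [8, 2]],
    xl cF4 (ZMod 2) A ∈ (twF42.j.comp (commutator (twistedF4 (ZMod 2) 1)).subtype).range := fun A hA => by
  obtain ⟨g, hg⟩ := twF42.j_range.ge ((blkF4 A hA).1.mem _ (tF4_one _ id_sq))
  by_cases h1 : g = 1
  · rw [← hg, h1, map_one]; exact one_mem _
  · refine ⟨⟨g, mem_commutator_twF42 g (orderOf_eq_prime (twF42.j_inj ?_) h1)⟩, hg⟩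
    rw [map_pow, hg, sq, ← xl_append, tabF4.xl_eq (blkF4 A hA).2, map_one, xl_nil]

theorem rk2_tits : Rk2 TitsGroup :=
  okTF4.rk2 (C := cF4) _ (twF42.j_inj.comp Subtype.val_injective) tits_mem

theorem rk2_of_equiv {G : Type*} [Group G] (h : Rk2 G) (e : S ≃* G) : Rk2 S := by
  obtain ⟨p, hp, h2, h⟩ := h
  refine ⟨p, hp, h2, fun h' => h fun A hA hA' => ?_⟩
  rw [Nat.card_congr (e.symm.subgroupMap A).toEquiv]
  refine h' _ ⟨⟨?_⟩⟩ ?_
  · rintro ⟨_, a, ha, rfl⟩ ⟨_, b, hb, rfl⟩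
    refine Subtype.ext ?_
    simp only [Subgroup.coe_mul, ← map_mul]
    exact congrArg _ (congrArg Subtype.val (hA.is_comm.comm ⟨a, ha⟩ ⟨b, hb⟩))
  · rintro _ ⟨a, ha, rfl⟩
    rw [← map_pow, hA' a ha, map_one]

theorem rk2_of_excE (h : IsExcE S) : Rk2 S := by
  rcases h with ⟨F, _, _, hc, -, ⟨e⟩⟩ | ⟨K, _, _, n, hn, hK, ⟨e⟩⟩ | ⟨K, _, _, m, -, hK, ⟨e⟩⟩ | ⟨⟨e⟩⟩
  · exact okG2.rk2 (C := cG2) e.toMonoidHom e.injective fun _ _ => range_top e _
  · have hc : CharP K 2 := charP_of_card_eq_prime_pow (f := n * 3) (by rw [hK, pow_mul])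
    obtain ⟨φ, hφ, h3, -⟩ := exists_frob3 (isPrimePow_of_card hK) hK
    have hσ1 : ∀ r < chevD4.nroots, (tD4 φ h3).σ (cD4.xg K r 1) = cD4.xg K (piT grTD4a r) 1 :=
      fun r hr => (graphHom_one graphDataD4a φ hr 1).trans (by rw [map_one])
    let X := twD4 φ h3 hφ
    exact okD4.rk2 (C := cD4) (X.j.comp e.toMonoidHom) (X.j_inj.comp e.injective) fun A hA =>
      mem_range_comp e _ (X.j_range.ge ((blkD4 A hA).mem _ hσ1))
  · obtain ⟨_, θ, hθ, h2⟩ := exists_theta hK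
    let X := twF4 θ h2 hθ
    exact okTF4.rk2 (C := cF4) (X.j.comp e.toMonoidHom) (X.j_inj.comp e.injective) fun A hA =>
      mem_range_comp e _ (X.j_range.ge ((blkF4 A hA).1.mem _ (tF4_one θ h2)))
  · exact rk2_of_equiv rk2_tits e

/-- The members of `IsExcE` have 3-rank at least two. -/
theorem rk2_excE : ForSimple.{u} (fun S _ => IsExcE S) (fun S _ => Rk2 S) :=
  fun _ _ _ _ _ h => rk2_of_excE h

theorem thin_excE : ForSimple.{u} (fun S _ => IsExcE S) (fun S _ => ThinList S ∨ Rk2 S) :=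
  fun _ _ _ _ _ h => Or.inr (rk2_of_excE h)

end Cfsg.Agent.H78.QTE
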