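import Mathlib
import Cfsg.Agent.H49.XS

/-! Twisted group algebras over the field with three elements and extensions of extraspecial groups. -/

set_option autoImplicit false
set_option linter.unusedSectionVars false

namespace Cfsg.Agent.H78.Cl
open Subgroup

/-- The sign character. -/
def s (a : ZMod 2) : ZMod 3 := if a = 0 then 1 else -1

theorem s_add : ∀ a b, s (a + b) = s a * s b := by decide
theorem s_sq : ∀ a, s a * s a = 1 := by decide
theorem s_zero : s 0 = 1 := rfl
theorem s_one : s 1 = -1 := rfl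
theorem s_ne : ∀ a, s a ≠ 0 := by decide
theorem s_surj : ∀ c : ZMod 3, c ≠ 0 → ∃ a, c = s a := by decide
theorem s_eq_one : ∀ a, s a = 1 → a = 0 := by decide
theorem z2 : ∀ a : ZMod 2, a = 0 ∨ a = 1 := by decide

variable {U : Type*} [AddCommGroup U] [Module (ZMod 2) U] [Fintype U]
  {A : Type*} [Ring A] [Algebra (ZMod 3) A] [Nontrivial A]

theorem add_self (u : U) : u + u = 0 := by
  rw [← two_smul (ZMod 2), show (2 : ZMod 2) = 0 from rfl, zero_smul]

/-- A twisted group algebra. -/
structure Tw (β : U →ₗ[ZMod 2] U →ₗ[ZMod 2] ZMod 2) (e : U → A) : Prop where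
  mul : ∀ u v, e u * e v = s (β u v) • e (u + v)
  zero : e 0 = 1
  span : ∀ a, ∃ c : U → ZMod 3, a = ∑ u, c u • e u
  nd : ∀ u, u ≠ 0 → ∃ v, β v u + β u v = 1
  card : (Fintype.card U : ZMod 3) ≠ 0

variable {β : U →ₗ[ZMod 2] U →ₗ[ZMod 2] ZMod 2} {e : U → A}

theorem smul_one_ne {c : ZMod 3} (hc : c ≠ 0) : c • (1 : A) ≠ 0 := fun h => by
  have := Fact.mk Nat.prime_three
  have := congrArg (c⁻¹ • ·) h
  simp only [smul_smul, inv_mul_cancel₀ hc, one_smul, smul_zero] at this
  exact one_ne_zero this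

/-- The averaging operator. -/
def P (β : U →ₗ[ZMod 2] U →ₗ[ZMod 2] ZMod 2) (e : U → A) (a : A) : A :=
  ∑ v, s (β v v) • (e v * a * e v)

namespace Tw
variable (h : Tw β e)
include h

theorem sq (u : U) : e u * e u = s (β u u) • 1 := by rw [h.mul, add_self, h.zero]

theorem comm (u v : U) : e u * e v = s (β u v + β v u) • (e v * e u) := by
  rw [h.mul, h.mul, smul_smul, s_add, mul_assoc, s_sq, mul_one, add_comm]

theorem P_sign {a : A} (ε : U → ZMod 2) (ha : ∀ v, a * e v = s (ε v) • (e v * a)) :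
    P β e a = (∑ v, s (ε v)) • a := by
  rw [P, Finset.sum_smul]
  refine Finset.sum_congr rfl fun v _ => ?_
  rw [mul_assoc, ha, mul_smul_comm, ← mul_assoc, h.sq, smul_mul_assoc, one_mul, smul_smul, smul_smul,
    mul_right_comm, s_sq, one_mul]

theorem P_e {u : U} (hu : u ≠ 0) : P β e (e u) = 0 := by
  obtain ⟨w, hw⟩ := h.nd u hu
  rw [h.P_sign (fun v => β u v + β v u) (h.comm u)]
  have h1 := Equiv.sum_comp (Equiv.addRight w) fun v => s (β u v + β v u)
  have h2 : ∀ v, s (β u (v + w) + β (v + w) u) = -s (β u v + β v u) := fun v => by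
    rw [show β u (v + w) + β (v + w) u = β u v + β v u + (β w u + β u w) by
      simp only [map_add, LinearMap.add_apply]; ring, hw, s_add, s_one, mul_neg, mul_one]
  simp only [Equiv.coe_addRight, h2, Finset.sum_neg_distrib] at h1
  have h3 : ∀ c : ZMod 3, -c = c → c = 0 := by decide
  rw [h3 _ h1, zero_smul]

theorem P_one : P β e 1 = (Fintype.card U : ZMod 3) • 1 := by
  rw [h.P_sign (fun _ => 0) fun v => by simp [s_zero]]
  simp [s_zero]

theorem P_mul (c : U → ZMod 3) (w : U) :
    P β e ((∑ u, c u • e u) * e w) = (c w * s (β w w) * Fintype.card U) • 1 := by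
  have h1 : P β e ((∑ u, c u • e u) * e w) = ∑ u, (c u * s (β u w)) • P β e (e (u + w)) := by
    simp only [P, Finset.sum_mul, Finset.mul_sum, Finset.smul_sum]
    rw [Finset.sum_comm]
    refine Finset.sum_congr rfl fun u _ => Finset.sum_congr rfl fun v _ => ?_
    rw [smul_mul_assoc, h.mul u w]
    simp only [mul_smul_comm, smul_mul_assoc, smul_smul]
    congr 1
    ring
  rw [h1, Finset.sum_eq_single w (fun u _ hu => by
    rw [h.P_e fun k => hu (by rw [← add_zero u, ← add_self w, ← add_assoc, k, zero_add]), smul_zero])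
    (by simp), add_self, h.zero, h.P_one, smul_smul]

theorem exists_P {a : A} (ha : a ≠ 0) : ∃ w, ∃ c : ZMod 3, c ≠ 0 ∧ P β e (a * e w) = c • 1 := by
  have := Fact.mk Nat.prime_three
  obtain ⟨c, rfl⟩ := h.span a
  obtain ⟨w, hw⟩ : ∃ w, c w ≠ 0 := by
    by_contra k
    push Not at k
    exact ha (by simp [k])
  exact ⟨w, _, mul_ne_zero (mul_ne_zero hw (s_ne _)) h.card, h.P_mul c w⟩

theorem inj {u v : U} {a b : ZMod 2} (k : s a • e u = s b • e v) : u = v := by
  have := Fact.mk Nat.prime_three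
  by_contra huv
  have h1 : e u = (s a * s b) • e v := by rw [mul_smul, ← k, smul_smul, s_sq, one_smul]
  have h2 : e (u + v) = (s (β u v) * (s a * s b) * s (β v v)) • 1 := by
    rw [mul_smul, mul_smul, ← h.sq, ← smul_mul_assoc (s a * s b), ← h1, h.mul, smul_smul, s_sq, one_smul]
  have h3 := h.P_e (u := u + v) fun k => huv (by rw [← add_zero u, ← add_self v, ← add_assoc, k, zero_add])
  rw [h.P_sign (fun _ => 0) fun w => by rw [h2]; simp [s_zero], h2, smul_smul] at h3
  refine smul_one_ne (mul_ne_zero ?_ ?_) h3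
  · simpa [s_zero] using h.card
  · rw [← s_add, ← s_add, ← s_add]; exact s_ne _

theorem unit [Finite A] {a : A} (ha : a ≠ 0) (h1 : ∀ u, ∃ b, a * e u = b * a) : IsUnit a := by
  rw [IsUnit.isUnit_iff_mulLeft_bijective]
  refine Finite.injective_iff_bijective.1 fun x y hxy => ?_
  by_contra k
  obtain ⟨w, c, h2, h3⟩ := h.exists_P (sub_ne_zero.2 k)
  have h4 : a * (x - y) = 0 := by rw [mul_sub]; exact sub_eq_zero.2 hxy
  have h5 : a * P β e ((x - y) * e w) = 0 := by
    rw [P, Finset.mul_sum]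
    refine Finset.sum_eq_zero fun v _ => ?_
    obtain ⟨b, hb⟩ := h1 v
    rw [mul_smul_comm, ← mul_assoc, ← mul_assoc, hb, mul_assoc b, ← mul_assoc a, h4]
    simp
  have := Fact.mk Nat.prime_three
  rw [h3, mul_smul_comm, mul_one] at h5
  exact ha ((smul_eq_zero_iff_right h2).1 h5)

theorem of_sign {a : A} (ha : a ≠ 0) (h1 : ∀ u, ∃ ε, a * e u = s ε • (e u * a)) :
    ∃ w ε, a = s ε • e w := by
  have := Fact.mk Nat.prime_three
  choose ε hε using h1
  obtain ⟨w, c, h2, h3⟩ := h.exists_P ha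
  rw [h.P_sign (fun v => ε v + (β w v + β v w)) fun v => by
    rw [mul_assoc, h.comm, mul_smul_comm, ← mul_assoc, hε, smul_mul_assoc, smul_smul, mul_assoc,
      s_add (ε v), mul_comm (s (ε v))]] at h3
  generalize ∑ v, s (ε v + (β w v + β v w)) = d at h3
  have h4 : d ≠ 0 := fun k => smul_one_ne h2 (by rw [← h3, k, zero_smul])
  have h5 := congrArg (fun x => (d⁻¹ * s (β w w)) • (x * e w)) h3
  simp only [smul_mul_assoc, mul_assoc, h.sq, mul_smul_comm, mul_one, one_mul, smul_smul] at h5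
  obtain ⟨η, hη⟩ := s_surj _ (mul_ne_zero (inv_ne_zero h4) (mul_ne_zero (s_ne (β w w)) h2))
  refine ⟨w, η, ?_⟩
  rw [← hη, ← h5, show d⁻¹ * (s (β w w) * (d * s (β w w))) = d⁻¹ * d * (s (β w w) * s (β w w)) by ring,
    inv_mul_cancel₀ h4, s_sq, one_mul, one_smul]

theorem exists_lift [Finite A] (k : U → U) (k1 : ∀ u, β (k u) (k u) = β u u)
    (k2 : ∀ u v, β (k u) (k v) + β (k v) (k u) = β u v + β v u) :
    ∃ g : Aˣ, ∀ u, ∃ ε, g * e u = s ε • (e (k u) * g) := by
  classical
  have key : ∀ S : Finset U, ∃ b : A, b ≠ 0 ∧ ∀ u ∈ S, ∃ ε, e (k u) * b * e u = s ε • b := fun S => by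
    induction S using Finset.induction_on with
    | empty => exact ⟨1, one_ne_zero, by simp⟩
    | insert w S _ ih =>
      obtain ⟨b, b1, b2⟩ := ih
      by_cases b3 : b + e (k w) * b * e w = 0
      · refine ⟨b, b1, fun u hu => ?_⟩
        rcases Finset.mem_insert.1 hu with rfl | hu
        · exact ⟨1, by rw [s_one, neg_smul, one_smul]; exact eq_neg_of_add_eq_zero_right b3⟩
        · exact b2 u hu
      refine ⟨_, b3, fun u hu => ?_⟩
      rcases Finset.mem_insert.1 hu with rfl | hu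
      · refine ⟨0, ?_⟩
        rw [s_zero, one_smul, mul_add, add_mul, add_comm, show e (k u) * (e (k u) * b * e u) * e u =
          e (k u) * e (k u) * b * (e u * e u) by noncomm_ring, h.sq, h.sq, k1]
        simp [smul_smul, s_sq]
      · obtain ⟨ε, hε⟩ := b2 u hu
        refine ⟨ε, ?_⟩
        rw [mul_add, add_mul, smul_add, hε, show e (k u) * (e (k w) * b * e w) * e u =
          e (k u) * e (k w) * b * (e w * e u) by noncomm_ring, h.comm (k u), h.comm w, k2, add_comm (β w u)]
        simp only [smul_mul_assoc, mul_smul_comm, smul_smul, s_sq, one_smul]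
        rw [show e (k w) * e (k u) * b * (e u * e w) = e (k w) * (e (k u) * b * e u) * e w by noncomm_ring,
          hε, mul_smul_comm, smul_mul_assoc]
  obtain ⟨b, b1, b2⟩ := key Finset.univ
  have b3 : ∀ u, ∃ ε, b * e u = s ε • (e (k u) * b) := fun u => by
    obtain ⟨ε, hε⟩ := b2 u (Finset.mem_univ u)
    refine ⟨β (k u) (k u) + ε, ?_⟩
    rw [s_add, mul_smul, ← mul_smul_comm, ← hε, ← mul_assoc, ← mul_assoc, h.sq]
    simp [smul_smul, s_sq]
  obtain ⟨g, rfl⟩ := h.unit b1 fun u => by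
    obtain ⟨ε, hε⟩ := b3 u
    exact ⟨s ε • e (k u), by rw [hε, smul_mul_assoc]⟩
  exact ⟨g, b3⟩

end Tw

theorem exists_tw (β : U →ₗ[ZMod 2] U →ₗ[ZMod 2] ZMod 2) (nd : ∀ u, u ≠ 0 → ∃ v, β v u + β u v = 1)
    (card : (Fintype.card U : ZMod 3) ≠ 0) :
    ∃ (A : Type) (_ : Ring A) (_ : Algebra (ZMod 3) A) (_ : Nontrivial A) (_ : Finite A) (e : U → A),
      Tw β e := by
  classical
  let σ := Fintype.equivFin U
  let E : U → Module.End (ZMod 3) (Fin (Fintype.card U) → ZMod 3) := fun u =>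
    LinearMap.pi fun x => s (β (σ.symm x) u) • LinearMap.proj (σ (σ.symm x + u))
  have E1 : ∀ u v, E u * E v = s (β u v) • E (u + v) := fun u v => by
    refine LinearMap.ext fun f => funext fun x => ?_
    simp only [E, Module.End.mul_apply, LinearMap.pi_apply, LinearMap.smul_apply, LinearMap.proj_apply,
      Pi.smul_apply, Equiv.symm_apply_apply, smul_eq_mul, map_add, LinearMap.add_apply, s_add, add_assoc]
    ring
  have E0 : E 0 = 1 := by
    refine LinearMap.ext fun f => funext fun x => ?_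
    simp [E, s_zero]
  let W : Submodule (ZMod 3) (Module.End (ZMod 3) (Fin (Fintype.card U) → ZMod 3)) :=
    Submodule.span (ZMod 3) (Set.range E)
  have hW : ∀ u, E u ∈ W := fun u => Submodule.subset_span ⟨u, rfl⟩
  let S := W.toSubalgebra (E0 ▸ hW 0) fun x y hx hy => by
    obtain ⟨c, rfl⟩ := (Submodule.mem_span_range_iff_exists_fun _).1 hx
    obtain ⟨d, rfl⟩ := (Submodule.mem_span_range_iff_exists_fun _).1 hy
    rw [Finset.sum_mul_sum]
    refine sum_mem fun u _ => sum_mem fun v _ => ?_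
    rw [smul_mul_smul_comm, E1]
    exact W.smul_mem _ (W.smul_mem _ (hW _))
  have : Nonempty (Fin (Fintype.card U)) := ⟨σ 0⟩
  have : Finite (Module.End (ZMod 3) (Fin (Fintype.card U) → ZMod 3)) :=
    Finite.of_injective _ DFunLike.coe_injective
  have := Fact.mk Nat.prime_three
  refine ⟨S, inferInstance, inferInstance, inferInstance, inferInstance, fun u => ⟨E u, hW u⟩,
    fun u v => Subtype.ext (E1 u v), Subtype.ext E0, fun a => ?_, nd, card⟩
  obtain ⟨c, hc⟩ := (Submodule.mem_span_range_iff_exists_fun _).1 a.2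
  exact ⟨c, Subtype.ext (by rw [← hc]; simp)⟩

end Cfsg.Agent.H78.Cl
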