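import Cfsg.Agent.H33.J4Odd1

/-! Counting conjugacy classes from a cover and lower bounds for the centraliser orders. -/

set_option autoImplicit false
set_option linter.unusedSectionVars false

namespace Cfsg.Agent.H78.J4C
open Subgroup H33.J4O

variable {G : Type*} [Group G] [Finite G]

/-- The order of the centraliser of an element. -/
noncomputable def cc (x : G) : ℕ := Nat.card (centralizer ({x} : Set G))

theorem cc_conj {x y : G} (h : IsConj x y) : cc x = cc y := isConj_cent h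

theorem cc_pos (x : G) : 0 < cc x := Nat.card_pos

theorem dvd_cc {K : Subgroup G} {x : G} (h : ∀ k ∈ K, k * x = x * k) : Nat.card K ∣ cc x :=
  card_dvd_of_le fun k hk => mcs.2 (h k hk)

theorem ord_dvd_cc {a x : G} (h : a * x = x * a) : orderOf a ∣ cc x := ord_dvd (mcs.2 h)

theorem le_cc {n : ℕ} {x : G} (h : n ∣ cc x) : n ≤ cc x := Nat.le_of_dvd (cc_pos x) h

/-- A list of elements with lower bounds for their centraliser orders. -/
def Good (P : List (G × ℕ)) : Prop := ∀ p ∈ P, p.2 ≤ cc p.1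

/-- Every element of the set is conjugate to a member of the list. -/
def Cv (S : Set G) (P : List (G × ℕ)) : Prop := ∀ g ∈ S, ∃ p ∈ P, IsConj p.1 g

/-- The set is covered by classes whose centraliser orders are bounded below. -/
def Cov (S : Set G) (L : List ℕ) : Prop :=
  ∃ P : List (G × ℕ), P.map Prod.snd = L ∧ Good P ∧ Cv S P

theorem Cov.mono {S T : Set G} {L : List ℕ} (h : Cov T L) (hS : S ⊆ T) : Cov S L := by
  obtain ⟨P, h1, h2, h3⟩ := h
  exact ⟨P, h1, h2, fun g hg => h3 g (hS hg)⟩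

theorem Cov.union {S T : Set G} {L M : List ℕ} (h : Cov S L) (h' : Cov T M) :
    Cov (S ∪ T) (L ++ M) := by
  obtain ⟨P, h1, h2, h3⟩ := h
  obtain ⟨Q, k1, k2, k3⟩ := h'
  refine ⟨P ++ Q, by rw [List.map_append, h1, k1], fun p hp => ?_, fun g hg => ?_⟩
  · exact (List.mem_append.1 hp).elim (h2 p) (k2 p)
  · rcases hg with hg | hg
    · obtain ⟨p, hp, e⟩ := h3 g hg
      exact ⟨p, List.mem_append_left _ hp, e⟩
    · obtain ⟨p, hp, e⟩ := k3 g hg
      exact ⟨p, List.mem_append_right _ hp, e⟩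

theorem Cov.bi {S : G → Set G} {L : List ℕ} (A : List G) (h : ∀ a ∈ A, Cov (S a) L) :
    Cov {g | ∃ a ∈ A, g ∈ S a} (List.replicate A.length L).flatten := by
  induction A with
  | nil => exact ⟨[], rfl, fun _ h => by simp at h, fun g h => by simp at h⟩
  | cons a A ih =>
    rw [List.length_cons, List.replicate_succ, List.flatten_cons]
    refine ((h a List.mem_cons_self).union (ih fun b hb => h b (List.mem_cons_of_mem _ hb))).mono ?_
    rintro g ⟨b, hb, hg⟩
    rcases List.mem_cons.1 hb with rfl | hb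
    · exact Or.inl hg
    · exact Or.inr ⟨b, hb, hg⟩

theorem class_le {x : G} {c : ℕ} (h0 : 0 < c) (h : c ≤ cc x) :
    {g | IsConj x g}.ncard ≤ Nat.card G / c := by
  have h1 := card_orbit (⊤ : Subgroup G) x
  rw [card_top, top_inf_eq] at h1
  have h2 : {g | IsConj x g} = {b | ∃ h ∈ (⊤ : Subgroup G), h * x * h⁻¹ = b} := by
    ext g; simp [isConj_iff]
  rw [h2, Nat.le_div_iff_mul_le h0, h1]
  exact Nat.mul_le_mul_left _ h

/-- The sum of the bounds for the class sizes. -/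
def mass (n : ℕ) (L : List ℕ) : ℕ := (L.map fun c => n / c).sum

theorem mass_append (n : ℕ) (L M : List ℕ) : mass n (L ++ M) = mass n L + mass n M := by
  simp [mass]

theorem mass_cons (n c : ℕ) (L : List ℕ) : mass n (c :: L) = n / c + mass n L := by
  simp [mass]

theorem ncard_le_mass (P : List (G × ℕ)) (h0 : ∀ p ∈ P, 0 < p.2) (h : Good P) :
    ∀ S : Set G, Cv S P → S.ncard ≤ mass (Nat.card G) (P.map Prod.snd) := by
  induction P with
  | nil =>
    intro S hS
    have : S = ∅ := Set.eq_empty_of_forall_notMem fun g hg => by simpa using hS g hg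
    simp [this]
  | cons p P ih =>
    intro S hS
    rw [List.map_cons, mass_cons, ← Set.ncard_inter_add_ncard_sdiff_eq_ncard S {g | IsConj p.1 g}]
    refine Nat.add_le_add ((Set.ncard_le_ncard Set.inter_subset_right).trans
      (class_le (h0 p List.mem_cons_self) (h p List.mem_cons_self))) (ih
        (fun q hq => h0 q (List.mem_cons_of_mem _ hq)) (fun q hq => h q (List.mem_cons_of_mem _ hq)) _
        fun g hg => ?_)
    obtain ⟨q, hq, e⟩ := hS g hg.1
    rcases List.mem_cons.1 hq with rfl | hq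
    · exact absurd e hg.2
    · exact ⟨q, hq, e⟩

theorem card_le_mass {P : List (G × ℕ)} (h0 : ∀ p ∈ P, 0 < p.2) (h : Good P)
    (hc : Cv Set.univ P) : Nat.card G ≤ mass (Nat.card G) (P.map Prod.snd) := by
  simpa using ncard_le_mass P h0 h _ hc

/-- A class with a small centraliser bound occurs once. -/
theorem essential {P Q : List (G × ℕ)} {p q : G × ℕ} (h0 : ∀ r ∈ P ++ p :: Q, 0 < r.2)
    (h : Good (P ++ p :: Q)) (hc : Cv Set.univ (P ++ p :: Q))
    (hm : mass (Nat.card G) ((P ++ p :: Q).map Prod.snd) < Nat.card G + Nat.card G / p.2)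
    (hq : q ∈ P ++ Q) : ¬ IsConj q.1 p.1 := fun e => by
  have hs : ∀ r ∈ P ++ Q, r ∈ P ++ p :: Q := fun r hr => by
    simp only [List.mem_append, List.mem_cons] at hr ⊢; tauto
  have := card_le_mass (fun r hr => h0 r (hs r hr)) (fun r hr => h r (hs r hr)) fun g _ => by
    obtain ⟨r, hr, e'⟩ := hc g trivial
    simp only [List.mem_append, List.mem_cons] at hr
    rcases hr with hr | rfl | hr
    · exact ⟨r, List.mem_append_left _ hr, e'⟩
    · exact ⟨q, hq, e.trans e'⟩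
    · exact ⟨r, List.mem_append_right _ hr, e'⟩
  simp only [List.map_append, List.map_cons, mass_append, mass_cons] at this hm
  omega

/-- A better bound is impossible for a class with a small centraliser bound. -/
theorem not_better {P : List (G × ℕ)} {p : G × ℕ} (h0 : ∀ r ∈ P, 0 < r.2) (h : Good P)
    (hc : Cv Set.univ P) (hp : p ∈ P) {c : ℕ} (c0 : 0 < c) (hcc : c ≤ cc p.1)
    (hm : mass (Nat.card G) (P.map Prod.snd) + Nat.card G / c < Nat.card G + Nat.card G / p.2) :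
    False := by
  obtain ⟨P1, P2, rfl⟩ := List.append_of_mem hp
  have := card_le_mass (P := P1 ++ (p.1, c) :: P2) (fun r hr => ?_) (fun r hr => ?_) fun g _ => ?_
  · simp only [List.map_append, List.map_cons, mass_append, mass_cons] at this hm
    omega
  · simp only [List.mem_append, List.mem_cons] at hr h0
    rcases hr with hr | rfl | hr
    exacts [h0 r (Or.inl hr), c0, h0 r (Or.inr (Or.inr hr))]
  · simp only [List.mem_append, List.mem_cons] at hr
    rcases hr with hr | rfl | hr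
    exacts [h r (by simp [hr]), hcc, h r (by simp [hr])]
  · obtain ⟨r, hr, e⟩ := hc g trivial
    simp only [List.mem_append, List.mem_cons] at hr
    rcases hr with hr | rfl | hr
    exacts [⟨r, by simp [hr], e⟩, ⟨(r.1, c), by simp, e⟩, ⟨r, by simp [hr], e⟩]

theorem card_classes {B R : List (G × ℕ)} (h0 : ∀ r ∈ B ++ R, 0 < r.2) (h : Good (B ++ R))
    (hc : Cv Set.univ (B ++ R)) (hB : B.Pairwise fun p q => ¬ IsConj p.1 q.1)
    (hm : ∀ c ∈ R.map Prod.snd,
      mass (Nat.card G) ((B ++ R).map Prod.snd) < Nat.card G + Nat.card G / c) :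
    Nat.card (ConjClasses G) = (B ++ R).length := by
  classical
  have h1 : (B ++ R).Pairwise fun p q => ¬ IsConj p.1 q.1 := by
    refine List.pairwise_append.2 ⟨hB, List.pairwise_iff_forall_sublist.2 fun {a b} hab => ?_,
      fun a ha b hb => ?_⟩
    · obtain ⟨R1, R2, rfl, h2, h3⟩ := List.cons_sublist_iff.1 hab
      obtain ⟨R3, R4, rfl⟩ := List.append_of_mem h2
      have e : B ++ (R3 ++ a :: R4 ++ R2) = (B ++ R3) ++ a :: (R4 ++ R2) := by simp
      rw [e] at h0 h hc hm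
      exact fun e' => essential (q := b) h0 h hc (hm _ (by simp))
        (by simp [List.singleton_sublist.1 h3]) e'.symm
    · obtain ⟨R3, R4, rfl⟩ := List.append_of_mem hb
      rw [← List.append_assoc] at h0 h hc hm
      exact essential h0 h hc (hm _ (by simp)) (by simp [ha])
  have h2 : ((B ++ R).map fun p => ConjClasses.mk p.1).Nodup :=
    List.pairwise_map.2 (h1.imp fun h e => h (ConjClasses.mk_eq_mk_iff_isConj.1 e))
  have := Fintype.ofFinite (ConjClasses G)
  rw [Nat.card_eq_fintype_card, ← Finset.card_univ, ← List.length_map (f := fun p => ConjClasses.mk p.1),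
    ← List.toFinset_card_of_nodup h2]
  congr 1
  refine (Finset.eq_univ_of_forall fun c => ?_).symm
  obtain ⟨g, rfl⟩ := ConjClasses.mk_surjective c
  obtain ⟨p, hp, e⟩ := hc g trivial
  exact List.mem_toFinset.2 (List.mem_map.2 ⟨p, hp, ConjClasses.mk_eq_mk_iff_isConj.2 e⟩)

/-! ### Parts of elements -/

theorem exists_split {p : ℕ} (hp : p.Prime) {g : G} (h : p ∣ orderOf g) (h2 : ¬ p ^ 2 ∣ orderOf g) :
    ∃ s u : G, g = s * u ∧ u * s = s * u ∧ orderOf s = p ∧ ¬ p ∣ orderOf u ∧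
      orderOf u ∣ orderOf g := by
  obtain ⟨m, hm⟩ := h
  have h3 : ¬ p ∣ m := fun ⟨k, hk⟩ => h2 ⟨k, by rw [hm, hk]; ring⟩
  have h4 : p.Coprime m := hp.coprime_iff_not_dvd.2 h3
  have e := Nat.gcd_eq_gcd_ab p m
  rw [h4] at e
  have h5 : (g ^ ((p : ℤ) * p.gcdA m)) ^ m = 1 := by
    rw [← zpow_natCast, ← zpow_mul, show (p : ℤ) * p.gcdA m * m = ((p * m : ℕ) : ℤ) * p.gcdA m by
      push_cast; ring, zpow_mul, ← hm, zpow_natCast, pow_orderOf_eq_one, one_zpow]
  have h6 : (g ^ ((m : ℤ) * p.gcdB m)) ^ p = 1 := by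
    rw [← zpow_natCast, ← zpow_mul, show (m : ℤ) * p.gcdB m * p = ((p * m : ℕ) : ℤ) * p.gcdB m by
      push_cast; ring, zpow_mul, ← hm, zpow_natCast, pow_orderOf_eq_one, one_zpow]
  have h7 : g = g ^ ((m : ℤ) * p.gcdB m) * g ^ ((p : ℤ) * p.gcdA m) := by
    rw [← zpow_add, add_comm, ← e]; simp
  have h8 := orderOf_dvd_of_pow_eq_one h5
  have := Fact.mk hp
  refine ⟨_, _, h7, by rw [← zpow_add, ← zpow_add, add_comm], orderOf_eq_prime h6 fun e1 => ?_,
    fun e1 => h3 (e1.trans h8), h8.trans ⟨p, by rw [hm, mul_comm]⟩⟩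
  rw [e1, one_mul] at h7
  rw [← h7, hm] at h8
  have := Nat.le_of_dvd (Nat.pos_of_ne_zero (by rintro rfl; simp at h3)) h8
  have := hp.two_le
  have : 0 < m := Nat.pos_of_ne_zero (by rintro rfl; simp at h3)
  nlinarith

/-- The elements whose `p`-part is conjugate to `a`, of order not divisible by `q`. -/
def Sa (p q : ℕ) (a : G) : Set G :=
  {g | ∃ s u : G, g = s * u ∧ u * s = s * u ∧ IsConj a s ∧ ¬ p ∣ orderOf u ∧ ¬ q ∣ orderOf u}

/-- The local data at `a`. -/
def Loc (p q : ℕ) (a : G) (L : List ℕ) : Prop :=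
  ∃ U : List (G × ℕ), U.map Prod.snd = L ∧ (∀ r ∈ U, r.2 ≤ cc (a * r.1)) ∧
    ∀ u, u * a = a * u → ¬ p ∣ orderOf u → ¬ q ∣ orderOf u →
      ∃ r ∈ U, ∃ k, k * a = a * k ∧ k * r.1 * k⁻¹ = u

theorem Loc.cov {p q : ℕ} {a : G} {L : List ℕ} (h : Loc p q a L) : Cov (Sa p q a) L := by
  obtain ⟨U, h1, h2, h3⟩ := h
  refine ⟨U.map fun r => (a * r.1, r.2), by rw [← h1, List.map_map]; rfl, fun r hr => ?_, ?_⟩
  · obtain ⟨r', hr', rfl⟩ := List.mem_map.1 hr
    exact h2 r' hr'
  · rintro _ ⟨s, u, rfl, e, hs, o1, o2⟩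
    obtain ⟨c, rfl⟩ := isConj_iff.1 hs
    have o : orderOf (c⁻¹ * u * c) = orderOf u := by simpa using orderOf_cj c⁻¹ u
    obtain ⟨r, hr, k, k1, k2⟩ := h3 (c⁻¹ * u * c) (by
      calc _ = c⁻¹ * (u * (c * a * c⁻¹)) * c := by group
        _ = _ := by rw [e]; group) (o ▸ o1) (o ▸ o2)
    refine ⟨_, List.mem_map.2 ⟨r, hr, rfl⟩, isConj_iff.2 ⟨c * k, ?_⟩⟩
    calc _ = c * (k * a * r.1 * k⁻¹) * c⁻¹ := by group
      _ = c * a * (k * r.1 * k⁻¹) * c⁻¹ := by rw [k1]; group
      _ = _ := by rw [k2]; group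

theorem mem_Sa {p q : ℕ} (hp : p.Prime) {A : List G} (hA : ∀ s, orderOf s = p → ∃ a ∈ A, IsConj a s)
    {g : G} (h : p ∣ orderOf g) (h2 : ¬ p ^ 2 ∣ orderOf g) (h3 : ¬ q ∣ orderOf g) :
    ∃ a ∈ A, g ∈ Sa p q a := by
  obtain ⟨s, u, e1, e2, e3, e4, e5⟩ := exists_split hp h h2
  obtain ⟨a, ha, e⟩ := hA s e3
  exact ⟨a, ha, s, u, e1, e2, e, e4, fun h => h3 (h.trans e5)⟩

theorem exists_reps {r : ℕ} (hr : 0 < r) (N : Subgroup G) : ∀ (k : ℕ) (S : Set G), S.ncard = k * r →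
    (∀ x ∈ S, ∀ n ∈ N, n * x * n⁻¹ ∈ S) →
    (∀ x ∈ S, {b | ∃ n ∈ N, n * x * n⁻¹ = b}.ncard = r) →
    ∃ A : List G, A.length = k ∧ (∀ a ∈ A, a ∈ S) ∧ ∀ x ∈ S, ∃ a ∈ A, IsConj a x := by
  intro k
  induction k with
  | zero =>
    intro S h _ _
    rw [zero_mul, Set.ncard_eq_zero] at h
    exact ⟨[], rfl, by simp, by simp [h]⟩
  | succ k ih =>
    intro S h h1 h2
    obtain ⟨a, ha⟩ : S.Nonempty := Set.nonempty_of_ncard_ne_zero (by rw [h]; positivity)
    have h3 : {b | ∃ n ∈ N, n * a * n⁻¹ = b} ⊆ S := by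
      rintro _ ⟨n, hn, rfl⟩; exact h1 a ha n hn
    obtain ⟨A, a1, a2, a3⟩ := ih (S \ {b | ∃ n ∈ N, n * a * n⁻¹ = b})
      (by rw [Set.ncard_sdiff h3, h, h2 a ha, add_mul, one_mul, Nat.add_sub_cancel])
      (fun x hx n hn => ⟨h1 x hx.1 n hn, fun ⟨m, hm, e⟩ => hx.2 ⟨n⁻¹ * m, N.mul_mem (N.inv_mem hn) hm, by
        calc _ = n⁻¹ * (m * a * m⁻¹) * n := by group
          _ = _ := by rw [e]; group⟩⟩) fun x hx => h2 x hx.1
    refine ⟨a :: A, by rw [List.length_cons, a1], fun b hb => ?_, fun x hx => ?_⟩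
    · rcases List.mem_cons.1 hb with rfl | hb
      exacts [ha, (a2 b hb).1]
    · by_cases h4 : x ∈ {b | ∃ n ∈ N, n * a * n⁻¹ = b}
      · obtain ⟨n, -, e⟩ := h4
        exact ⟨a, List.mem_cons_self, isConj_iff.2 ⟨n, e⟩⟩
      · obtain ⟨b, hb, e⟩ := a3 x ⟨hx, h4⟩
        exact ⟨b, List.mem_cons_of_mem _ hb, e⟩

theorem comm_iff_of_mem {p : ℕ} (hp : p.Prime) {s a : G} (hs : orderOf s = p) (ha : a ∈ zpowers s)
    (h1 : a ≠ 1) (c : G) : c * a = a * c ↔ c * s = s * c :=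
  ⟨zp_comm (zp_symm hp hs ha h1), zp_comm ha⟩

/-- The classes of elements whose order is divisible by a prime dividing the order once. -/
theorem cov_cyc {p q r k : ℕ} (hp : p.Prime) (hsq : ¬ p ^ 2 ∣ Nat.card G) {s : G}
    (hs : orderOf s = p) (hr : 0 < r)
    (hN : Nat.card (normalizer ((zpowers s : Subgroup G) : Set G)) = r * cc s) (hk : p - 1 = k * r)
    {L : List ℕ} (hL : ∀ a ∈ zpowers s, a ≠ 1 → Loc p q a L) :
    Cov {g : G | p ∣ orderOf g ∧ ¬ q ∣ orderOf g} (List.replicate k L).flatten := by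
  obtain ⟨A, rfl, a2, a3⟩ := exists_reps hr (normalizer ((zpowers s : Subgroup G) : Set G)) k
    ((zpowers s : Set G) \ {1}) (by
      rw [Set.ncard_sdiff_singleton_of_mem (one_mem _), ← Nat.card_coe_set_eq, SetLike.coe_sort_coe,
        Nat.card_zpowers, hs, hk])
    (fun x hx n hn => ⟨norm_mem hn hx.1, fun e => hx.2 (conj_eq_one_iff.1 e)⟩) fun x hx => by
      have h1 := card_orbit (normalizer ((zpowers s : Subgroup G) : Set G)) x
      have h2 : centralizer ({x} : Set G) = centralizer {s} := by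
        ext c; rw [mcs, mcs, comm_iff_of_mem hp hs hx.1 hx.2]
      rw [h2, inf_eq_right.2 (cent_le_norm s), hN] at h1
      exact (Nat.eq_of_mul_eq_mul_right (cc_pos s) h1).symm
  refine (Cov.bi A fun a ha => (hL a (a2 a ha).1 (a2 a ha).2).cov).mono fun g hg => ?_
  refine mem_Sa hp (fun x hx => ?_) hg.1 (fun h => hsq (h.trans (orderOf_dvd_natCard g))) hg.2
  obtain ⟨c, hc⟩ := conj_top hp hsq hs (b := x) (hx ▸ pow_orderOf_eq_one x)
  obtain ⟨a, ha, e⟩ := a3 _ ⟨hc, fun e => by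
    rw [conj_eq_one_iff.1 e, orderOf_one] at hx; exact hp.ne_one hx.symm⟩
  exact ⟨a, ha, e.trans (isConj_iff.2 ⟨c, rfl⟩).symm⟩

/-- A self-centralising Sylow subgroup of prime order. -/
theorem cov_self {p r k : ℕ} [hp : Fact p.Prime] (h1 : p ∣ Nat.card G) (hsq : ¬ p ^ 2 ∣ Nat.card G)
    (hr : 0 < r) (hk : p - 1 = k * r)
    (h : ∀ U : Sylow p G, centralizer ((U : Subgroup G) : Set G) = (U : Subgroup G) ∧
      Nat.card ↥(normalizer ((U : Subgroup G) : Set G)) = p * r) :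
    Cov {g : G | p ∣ orderOf g} (List.replicate k [p]).flatten := by
  obtain ⟨s, hs⟩ := exists_prime_orderOf_dvd_card' p h1
  obtain ⟨U, hU⟩ := exists_sylow (p := p) (A := zpowers s) (k := 1)
    (by rw [Nat.card_zpowers, hs, pow_one]) hsq
  obtain ⟨h2, h3⟩ := h U
  rw [hU] at h2 h3
  rw [cent_zpowers] at h2
  refine (cov_cyc (q := 0) hp.out hsq hs hr (by rw [h3, cc, h2, Nat.card_zpowers, hs, mul_comm]) hk
    fun a ha a1 => ⟨[(1, p)], rfl, fun x hx => ?_, fun u hu o1 _ => ⟨(1, p), by simp, 1, by simp, ?_⟩⟩).mono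
    fun g hg => ⟨hg, by simpa using (orderOf_pos g).ne'⟩
  · rw [List.mem_singleton.1 hx, mul_one]
    exact le_cc (hs ▸ ord_dvd_cc (zp_comm ha rfl))
  · have h4 : u ∈ zpowers s := h2 ▸ mcs.2 ((comm_iff_of_mem hp.out hs ha a1 u).1 hu)
    have h5 := orderOf_dvd_of_pow_eq_one (zp_pow h4)
    rw [hs, Nat.dvd_prime hp.out] at h5
    rcases h5 with h5 | h5
    · simp [orderOf_eq_one_iff.1 h5]
    · exact absurd h5.symm.dvd o1

/-- Two-elements are conjugate into a subgroup of odd index. -/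
theorem conj_into {C K : Subgroup G} (hK : K ≤ C) {n m : ℕ} (h1 : 2 ^ n ∣ Nat.card K)
    (h2 : ¬ 2 ^ (n + 1) ∣ Nat.card C) {u : G} (hu : u ∈ C) (h3 : u ^ 2 ^ m = 1) :
    ∃ c ∈ C, c * u * c⁻¹ ∈ K := by
  obtain ⟨T, hT⟩ := Sylow.exists_subgroup_card_pow_prime 2 h1
  have h4 : T.map K.subtype ≤ C := (map_subtype_le T).trans hK
  obtain ⟨P, hP⟩ := exists_sylow (p := 2) (A := (T.map K.subtype).subgroupOf C) (k := n) (by
    rw [Nat.card_congr (subgroupOfEquivOfLe h4).toEquiv, card_map_of_injective K.subtype_injective, hT]) h2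
  obtain ⟨c, hc⟩ := exists_conj_sylow P (b := ⟨u, hu⟩) (k := m) (Subtype.ext h3)
  rw [hP, mem_subgroupOf] at hc
  exact ⟨c, c.2, map_subtype_le T hc⟩

end Cfsg.Agent.H78.J4C
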