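import Cfsg.Agent.H78.J4X
import Cfsg.Agent.H46.J4B
import Cfsg.Agent.H49.JU6

/-! The data in a group of Janko-four type. -/

set_option autoImplicit false
set_option linter.unusedSectionVars false
set_option maxRecDepth 1000000

namespace Cfsg.Agent.H78.J4C
open Subgroup H42 H46 H46.J4 H17.J4R H17.J4A

/-- A word for the element. -/
def w5 : List ℕ := [0, 1, 0, 1, 0, 2, 0, 2, 0, 1, 0, 1, 0, 1, 1, 0, 1, 0, 2, 0, 2, 0, 1, 0, 1, 0, 1,
  0, 1, 0, 1, 0, 2, 0, 2, 0, 1, 0, 1, 0, 1, 1, 0, 1, 0, 2, 0, 2, 0, 1, 0, 1, 0, 1, 0, 3, 1, 0, 1, 0,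
  2, 0, 2, 0, 1, 0, 1, 0, 1, 3, 1, 0, 1, 0, 2, 0, 2, 0, 1, 0, 1, 0, 1]

theorem w5_lt : ∀ j ∈ w5, j < 4 := by decide +kernel

theorem w5_K : OK.word (getL [pX, pY, pinv pY, mkc 132288 pid]) w5 = k5 := by decide +kernel

theorem w5_M : frc (O.mul (O.word (getL [mX, mY, mYi, evM eS false]) w5) mT) (fun a =>
    andB (O.eqB (O.pow a 5) O.one) (notB (O.eqB a O.one))) = true := by decide +kernel

theorem five_J4 : ∃ k, RK k5 k ∧ orderOf (DJ.ψ k * DJ.t) = 5 := by
  obtain ⟨s, hs⟩ := exists_of_valid (a := mkc 132288 pid) (by decide +kernel)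
  let g : ℕ → KK := fun j => [inK (toM pX), inK (toM pY), inK (toM (pinv pY)), s].getD j 1
  have h1 : CK.R (OK.word (getL [pX, pY, pinv pY, mkc 132288 pid]) w5) (w5.map g).prod :=
    CK.R_word w5 fun j hj => by
      have := w5_lt j hj
      interval_cases j
      exacts [RK_inK inM_pX, RK_inK inM_pY, RK_inK (inM_pinv inM_pY), hs]
  have h2 : (CG.comap rho hub.injective).R (O.word (getL [mX, mY, mYi, evM eS false]) w5)
      (w5.map fun j => DJ.ψ (g j)).prod :=
    (CG.comap rho hub.injective).R_word w5 fun j hj => by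
      have := w5_lt j hj
      interval_cases j
      · show CG.R mX (rho (DJ.ψ (inK (toM pX))))
        rw [DJ.ψ_inK, show DJ.φ (toM pX) = jx from phi_X, rho_x]; exact R_X
      · show CG.R mY (rho (DJ.ψ (inK (toM pY))))
        rw [DJ.ψ_inK, show DJ.φ (toM pY) = jy from phi_Y, rho_y]; exact R_Y
      · show CG.R mYi (rho (DJ.ψ (inK (toM (pinv pY)))))
        rw [DJ.ψ_inK, toM_pinv inM_pY, map_inv, map_inv, show DJ.φ (toM pY) = jy from phi_Y, rho_y]
        exact R_Yi
      · have e : DJ.ψ s = eS.ev jx jy jt := by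
          rw [DJ.ψ_RK hs, pa_mkc _ inM_pid, ma_mkc _ inM_pid, toM_pid, map_one, mul_one]
          exact sig_s
        have h := R_rho eS
        rw [← e] at h
        generalize evM eS false = m at h
        exact h
  rw [w5_K] at h1
  have h3 : (CG.comap rho hub.injective).R mT DJ.t := by
    show CG.R mT (rho jt)
    rw [rho_t]; exact R_T
  have h4 := w5_M
  rw [frc_eq, andB_iff, notB_iff] at h4
  have := Fact.mk Nat.prime_five
  refine ⟨_, h1, Coded.orderOf_eq_prime _ ((CG.comap rho hub.injective).R_mul ?_ h3) 5 h4.1 h4.2⟩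
  rwa [map_list_prod, List.map_map]

/-- The data transported along a homomorphism. -/
def mapD {G H : Type*} [Group G] [Group H] (D : Dat G) (f : G →* H) : Dat H where
  φ := f.comp D.φ
  σ a := f (D.σ a)
  t := f D.t
  tt := by rw [← map_mul, D.tt, map_one]
  σ_xor a b := by rw [D.σ_xor, map_mul]
  σ_code c h := by rw [D.σ_code c h, map_one]
  σ_img g a h1 h2 h3 := by rw [← D.σ_img g a h1 h2 h3, map_mul, map_mul, map_inv]; rfl
  cent g h1 h2 := (D.cent g h1 h2).map f
  tV i hi := by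
    have := congrArg f (D.tV i hi)
    rwa [map_mul, map_mul, map_mul] at this
  r1 := by
    have := congrArg f D.r1
    simpa only [map_mul, map_one, MonoidHom.comp_apply] using this
  r2 := by
    have := congrArg f D.r2
    simpa only [map_mul, map_one, MonoidHom.comp_apply] using this

theorem mapD_ψ {G H : Type*} [Group G] [Group H] (D : Dat G) (f : G →* H) :
    (mapD D f).ψ = f.comp D.ψ := MonoidHom.ext fun k => by
  rw [Dat.ψ_apply, MonoidHom.comp_apply, Dat.ψ_apply, map_mul]; rfl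

theorem exists_D {G : Type*} [Group G] [Finite G] [IsSimpleGroup G] (hG : ¬ IsMulCommutative G)
    (hJ : IsOfJankoFourType G) : ∃ D : Dat G, Inj D ∧ Nat.card D.ψ.range = 2048 * 244823040 ∧
      ∃ k, RK k5 k ∧ orderOf (D.ψ k * D.t) = 5 := by
  obtain ⟨e⟩ := H49.JU.isoJ4 hub hG hJ
  obtain ⟨k, k1, k2⟩ := five_J4
  have h : Nat.card (mapD DJ e.symm.toMonoidHom).ψ.range = 2048 * 244823040 := by
    rw [mapD_ψ, MonoidHom.range_comp, card_map_of_injective e.symm.injective, range_DJ,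
      dat.card_H s_ne_one]
  refine ⟨mapD DJ e.symm.toMonoidHom, inj_of_card _ h, h, k, k1, ?_⟩
  rw [mapD_ψ, ← k2, ← e.symm.orderOf_eq, map_mul]; rfl

end Cfsg.Agent.H78.J4C
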