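import Cfsg.Agent.H78.J4Cov
import Cfsg.Agent.H46.J4S
import Cfsg.Agent.H49.M24Cls
import Cfsg.Agent.H42.Enum

/-! The conjugacy classes of the subgroup `2^11:M24`, coset by coset. -/

set_option autoImplicit false
set_option linter.unusedSectionVars false
set_option maxRecDepth 100000

namespace Cfsg.Agent.H78.J4C
open Subgroup MulAction H33.J4O H42 H46 H46.J4
open scoped Pointwise

/-- Enumerate the orbits of the listed points and pass on the membership test of their union. -/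
noncomputable def covChk (acts : List (ℕ → ℕ)) (fuel : ℕ) (fin : (ℕ → Bool) → Bool)
    (L : List (ℕ × ℕ)) : (ℕ → Bool) → Bool :=
  List.rec fin (fun a _ ih P => orb acts a.1 fuel false fun t m =>
    andB (Nat.beq m a.2) (ih fun x => orB (t.mem x) (P x))) L

theorem covChk_spec {acts : List (ℕ → ℕ)} {fuel : ℕ} {fin : (ℕ → Bool) → Bool} :
    ∀ (L : List (ℕ × ℕ)) (P : ℕ → Bool), covChk acts fuel fin L P = true →
      (∀ a ∈ L, ∃ t, OrbSpec acts a.1 t a.2) ∧
        ∃ P', fin P' = true ∧ ∀ x, P' x = true → P x = true ∨ ∃ a ∈ L, Reach acts a.1 x := by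
  intro L
  induction L with
  | nil => exact fun P h => ⟨by simp, P, h, fun x hx => Or.inl hx⟩
  | cons a L ih =>
    intro P h
    obtain ⟨t, n, h1, h2⟩ := orb_true (show orb acts a.1 fuel false (fun t m =>
      andB (Nat.beq m a.2) (covChk acts fuel fin L fun x => orB (t.mem x) (P x))) = true from h)
    obtain ⟨h2, h3⟩ := andB_iff.1 h2
    obtain ⟨h4, P', h5, h6⟩ := ih _ h3
    refine ⟨fun b hb => ?_, P', h5, fun x hx => ?_⟩
    · rcases List.mem_cons.1 hb with rfl | hb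
      exacts [⟨t, beq_iff.1 h2 ▸ h1⟩, h4 b hb]
    · rcases h6 x hx with h7 | ⟨b, hb, h7⟩
      · rcases orB_iff.1 h7 with h8 | h8
        exacts [Or.inr ⟨a, List.mem_cons_self, (h1.mem_iff x).1 h8⟩, Or.inl h8]
      · exact Or.inr ⟨b, List.mem_cons_of_mem _ hb, h7⟩

theorem syn_lt (a : ℕ) : syn a < 2048 :=
  xorC_induction (· < 2 ^ 11) (by norm_num) (fun _ _ => Nat.xor_lt_two_pow) _ _ _ fun _ _ => fld_lt _ _ _

theorem pc_img {g a : ℕ} (hg : inM g = true) (ha : a < 2 ^ 24) : pc (img g a) = pc a := by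
  rw [← card_toSet ha, ← card_toSet (img_lt (inM_isPerm hg) a), ← toM_smul_toSet hg,
    Finset.card_smul_finset]

theorem valid_bs : ∀ j < 11, valid (mkc (bs j) pid) = true ∧ bs j < 2 ^ 24 ∧ pc (bs j) % 2 = 0 := by
  decide +kernel

variable {G : Type*} [Group G] (D : Dat G)

/-- The element of `2^11` with given coordinates. -/
noncomputable def nu (s : ℕ) : G := D.σ (xorC bs s 11)

theorem nu_xor (a b : ℕ) : nu D (a ^^^ b) = nu D a * nu D b := by
  rw [nu, xorC_xor, D.σ_xor]; rfl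

theorem σ_sq (a : ℕ) : D.σ a * D.σ a = 1 := by rw [← D.σ_xor, Nat.xor_self, D.σ_zero]

theorem σ_comm (a b : ℕ) : D.σ a * D.σ b = D.σ b * D.σ a := by
  rw [← D.σ_xor, ← D.σ_xor, Nat.xor_comm]

theorem σ_img_nu {g a : ℕ} (hg : inM g = true) (ha : a < 2 ^ 24) (he : pc a % 2 = 0) :
    D.φ (toM g) * D.σ a * (D.φ (toM g))⁻¹ = nu D (syn (img g a)) := by
  rw [D.σ_img g a hg ha he, D.σ_syn (img_lt (inM_isPerm hg) a) (by rw [pc_img hg ha, he])]; rfl

theorem conj_nu {g : ℕ} (hg : inM g = true) {f : ℕ → ℕ} (hf : ∀ j < 11, f j = syn (img g (bs j)))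
    (s : ℕ) : D.φ (toM g) * nu D s * (D.φ (toM g))⁻¹ = nu D (xorC f s 11) := by
  have : ∀ k ≤ 11, D.φ (toM g) * D.σ (xorC bs s k) * (D.φ (toM g))⁻¹ = nu D (xorC f s k) := by
    intro k
    induction k with
    | zero =>
      intro _
      rw [xorC_zero, xorC_zero, D.σ_zero, mul_one, mul_inv_cancel, nu,
        show xorC bs 0 11 = 0 by decide +kernel, D.σ_zero]
    | succ k ih =>
      intro hk
      rw [xorC_succ, xorC_succ]
      split_ifs
      · rw [D.σ_xor, ← conj_mul, ih (by omega), nu_xor, hf k (by omega),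
          σ_img_nu D hg (valid_bs k (by omega)).2.1 (valid_bs k (by omega)).2.2]
      · exact ih (by omega)
  exact this 11 le_rfl

theorem ψ_nu (k : KK) : D.ψ k = nu D (syn (mask k.s)) * D.φ k.g := by
  rw [D.ψ_apply, D.σ_syn (mask_lt _) (pc_mask k)]; rfl

theorem exists_nu (s : ℕ) : ∃ k : KK, k.g = 1 ∧ D.ψ k = nu D s := by
  refine xorC_induction (fun a => ∃ k : KK, k.g = 1 ∧ D.ψ k = D.σ a) ⟨1, rfl, by
    rw [map_one, D.σ_zero]⟩ ?_ _ _ _ fun j hj => ?_
  · rintro a b ⟨k, k1, k2⟩ ⟨l, l1, l2⟩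
    exact ⟨k * l, by rw [KK.mul_g, k1, l1, mul_one], by rw [map_mul, k2, l2, D.σ_xor]⟩
  · obtain ⟨k, hk⟩ := exists_of_valid (valid_bs j hj).1
    refine ⟨k, by rw [hk.2.2.2, pa_mkc _ inM_pid, toM_pid], ?_⟩
    rw [D.ψ_RK hk, pa_mkc _ inM_pid, ma_mkc _ inM_pid, toM_pid, map_one, mul_one]

/-- The preimage of a subgroup of `M24`. -/
noncomputable def pre (C : Subgroup M24) : Subgroup G := (C.comap prM).map D.ψ

theorem mem_pre {C : Subgroup M24} {x : G} :
    x ∈ pre D C ↔ ∃ s < 2048, ∃ g ∈ C, x = nu D s * D.φ g := by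
  constructor
  · rintro ⟨k, hk, rfl⟩
    exact ⟨_, syn_lt _, k.g, hk, ψ_nu D k⟩
  · rintro ⟨s, -, g, hg, rfl⟩
    obtain ⟨k, k1, k2⟩ := exists_nu D s
    refine ⟨k * inK g, ?_, by rw [map_mul, k2, D.ψ_inK]⟩
    show k.g * g ∈ C
    rwa [k1, one_mul]

theorem pre_le (C : Subgroup M24) : pre D C ≤ D.ψ.range := map_le_range _ _

variable [Finite G]

/-- The homomorphism has the expected kernel. -/
def Inj : Prop := ∀ s < 2048, ∀ s' < 2048, ∀ g g', nu D s * D.φ g = nu D s' * D.φ g' → s = s' ∧ g = g'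

theorem inj_of_card (hc : Nat.card D.ψ.range = 2048 * 244823040) : Inj D := by
  let F : Fin 2048 × M24 → D.ψ.range := fun a =>
    ⟨nu D a.1 * D.φ a.2, pre_le D ⊤ ((mem_pre D).2 ⟨a.1, a.1.2, a.2, trivial, rfl⟩)⟩
  have h1 : Function.Surjective F := by
    rintro ⟨_, k, rfl⟩
    exact ⟨(⟨_, syn_lt _⟩, k.g), Subtype.ext (ψ_nu D k).symm⟩
  have h2 := (h1.bijective_of_nat_card_le (by
    rw [hc, Nat.card_prod, card_M24, Nat.card_eq_fintype_card, Fintype.card_fin])).1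
  intro s hs s' hs' g g' e
  have := @h2 (⟨s, hs⟩, g) (⟨s', hs'⟩, g') (Subtype.ext e)
  exact ⟨congrArg (fun a => a.1.1) this, congrArg Prod.snd this⟩

theorem card_pre (hi : Inj D) (C : Subgroup M24) : Nat.card (pre D C) = 2048 * Nat.card C := by
  let F : Fin 2048 × C → pre D C := fun a =>
    ⟨nu D a.1 * D.φ a.2, (mem_pre D).2 ⟨a.1, a.1.2, a.2, a.2.2, rfl⟩⟩
  have h1 : Function.Bijective F := by
    refine ⟨fun a b e => ?_, fun x => ?_⟩
    · obtain ⟨h1, h2⟩ := hi _ a.1.2 _ b.1.2 _ _ (congrArg Subtype.val e)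
      exact Prod.ext (Fin.ext h1) (Subtype.ext h2)
    · obtain ⟨s, hs, g, hg, e⟩ := (mem_pre D).1 x.2
      exact ⟨(⟨s, hs⟩, ⟨g, hg⟩), Subtype.ext e.symm⟩
  rw [← Nat.card_congr (Equiv.ofBijective F h1), Nat.card_prod, Nat.card_eq_fintype_card,
    Fintype.card_fin]

/-- The code of the group element. -/
def low (d : ℕ) : ℕ := Nat.land d 22300745198530623141535718272648361505980415
/-- The table of the action on coordinates. -/
def hi (d : ℕ) : ℕ := Nat.shiftRight d 144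

/-- The action on coordinates. -/
noncomputable def actV (d s : ℕ) : ℕ :=
  frc (hi d) fun T => Nat.xor (fld 11 T 11) (xorC (fld 11 T) s 11)

/-- The check of the table. -/
noncomputable def okV (y d : ℕ) : Bool := frc (low d) fun c => frc (hi d) fun T =>
  andB (valid c) (andB (comm (pa c) y)
    (andB (Nat.beq (fld 11 T 11) (syn (Nat.xor (ma c) (img y (ma c)))))
      (allB (fun j => Nat.beq (fld 11 T j) (syn (img (pa c) (bs j)))) 11)))

/-- The element of the coset of `2^11` with given coordinates. -/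
noncomputable def XX (y s : ℕ) : G := nu D s * D.φ (toM y)

/-- The element with a given code. -/
noncomputable def el (c : ℕ) : G := D.σ (ma c) * D.φ (toM (pa c))

theorem okV_spec {y d : ℕ} (h : okV y d = true) : valid (low d) = true ∧ comm (pa (low d)) y = true ∧
    fld 11 (hi d) 11 = syn (ma (low d) ^^^ img y (ma (low d))) ∧
      ∀ j < 11, fld 11 (hi d) j = syn (img (pa (low d)) (bs j)) := by
  obtain ⟨h1, h⟩ := andB_iff.1 h
  obtain ⟨h2, h⟩ := andB_iff.1 h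
  obtain ⟨h3, h⟩ := andB_iff.1 h
  exact ⟨h1, h2, beq_iff.1 h3, fun j hj => beq_iff.1 (of_allB h hj)⟩

theorem conj_XX {y d : ℕ} (hy : inM y = true) (h : okV y d = true) (s : ℕ) :
    XX D y (actV d s) = el D (low d) * XX D y s * (el D (low d))⁻¹ := by
  obtain ⟨h1, h2, h3, h4⟩ := okV_spec h
  obtain ⟨k, hk⟩ := exists_of_valid h1
  have e1 := conj_nu D hk.1 h4 s
  have e2 := σ_img_nu D hy hk.2.1 hk.even
  have e3 : D.φ (toM (pa (low d))) * D.φ (toM y) = D.φ (toM y) * D.φ (toM (pa (low d))) := by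
    rw [← map_mul, (comm_iff hk.1 hy).1 h2, map_mul]
  have e4 : D.σ (ma (low d)) = nu D (syn (ma (low d))) := D.σ_syn hk.2.1 hk.even
  have e5 : (D.σ (ma (low d)))⁻¹ = D.σ (ma (low d)) := inv_eq_of_mul_eq_one_left (σ_sq D _)
  show nu D (fld 11 (hi d) 11 ^^^ xorC (fld 11 (hi d)) s 11) * _ = _
  rw [h3, syn_xor, Nat.xor_assoc, Nat.xor_comm (syn (img _ _)), nu_xor, nu_xor, ← e1, ← e2, ← e4, el,
    XX, mul_inv_rev, e5]
  generalize D.φ (toM (pa (low d))) = a at e3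
  generalize D.φ (toM y) = b at e3
  calc _ = D.σ (ma (low d)) * a * nu D s * a⁻¹ * (b * a) * a⁻¹ * D.σ (ma (low d)) := by group
    _ = _ := by rw [← e3]; group

/-- The encoding of the conjugation action on a coset. -/
noncomputable def EV (hi' : Inj D) (y : ℕ) (hy : inM y = true) : Enc G (H42.Cj G) where
  ok d := okV y d = true
  grp d := el D (low d)
  valid s := s < 2048
  dec s := H42.Cj.mk (XX D y s)
  act := actV
  act_valid _ _ _ _ := Nat.xor_lt_two_pow (n := 11) (fld_lt _ _ _)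
    (xorC_induction (· < 2 ^ 11) (by norm_num) (fun _ _ => Nat.xor_lt_two_pow) _ _ _
      fun _ _ => fld_lt _ _ _)
  dec_act _ s h _ := conj_XX D hy h s
  dec_inj a b ha hb e := (hi' a ha b hb _ _ e).1

/-- The check for one coset. -/
noncomputable def clsChk (y : ℕ) (L : List (ℕ × List ℕ)) (n : ℕ) (gens : List ℕ)
    (R : List (ℕ × ℕ)) : Bool :=
  andB (chainChk (fun g => comm g y) L n) (andB (allL (okV y) gens)
    (andB (allB (fun j => anyL (fun d => Nat.beq (low d) (mkc (bs j) pid)) gens) 11)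
      (andB (allL (fun g => anyL (fun d => Nat.beq (low d) g) gens) (chainGens L))
        (andB (allL (fun a => ltB a.1 2048) R)
          (covChk (actsOf actV gens) 2050 (fun P => allB P 2048) R fun _ => false)))))

/-- The outcome of the check for one coset. -/
def Cls (y n : ℕ) (R : List (ℕ × ℕ)) : Prop :=
  (∀ s < 2048, ∃ a ∈ R, IsConj (XX D y a.1) (XX D y s)) ∧
    ∀ a ∈ R, ∃ K ≤ D.ψ.range ⊓ centralizer {XX D y a.1}, a.2 * Nat.card K = 2048 * n

theorem cls_spec (hi' : Inj D) {y n : ℕ} (hy : inM y = true)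
    (hn : Nat.card (centralizer {toM y}) = n) {L : List (ℕ × List ℕ)} {gens : List ℕ}
    {R : List (ℕ × ℕ)} (h : clsChk y L n gens R = true) : Cls D y n R := by
  obtain ⟨h1, h⟩ := andB_iff.1 h
  obtain ⟨h2, h⟩ := andB_iff.1 h
  obtain ⟨h3, h⟩ := andB_iff.1 h
  obtain ⟨h4, h⟩ := andB_iff.1 h
  obtain ⟨h5, h⟩ := andB_iff.1 h
  have h2 : ∀ d ∈ gens, (EV D hi' y hy).ok d := allL_iff.1 h2
  have h5 : ∀ a ∈ R, a.1 < 2048 := fun a ha => ltB_iff.1 (allL_iff.1 h5 a ha)
  obtain ⟨h6, P, h7, h8⟩ := covChk_spec _ _ h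
  have hC := (eq_gen_of_chainChk h1 (centralizer {toM y})
    (fun g hg e => mcs.2 ((comm_iff hg hy).1 e)) hn.le).1
  have hA : (EV D hi' y hy).clos gens = pre D (centralizer {toM y}) := by
    refine le_antisymm (Enc.clos_le _ _ fun d hd => ?_) fun x hx => ?_
    · obtain ⟨a1, a2, -⟩ := okV_spec (h2 d hd)
      obtain ⟨k, hk⟩ := exists_of_valid a1
      exact ⟨k, by
        show k.g ∈ centralizer {toM y}
        rw [hk.2.2.2]; exact mcs.2 ((comm_iff hk.1 hy).1 a2), D.ψ_RK hk⟩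
    · obtain ⟨s, -, g, hg, rfl⟩ := (mem_pre D).1 hx
      refine mul_mem (xorC_induction (fun a => D.σ a ∈ (EV D hi' y hy).clos gens)
        (by rw [D.σ_zero]; exact one_mem _) (fun a b ha hb => by rw [D.σ_xor]; exact mul_mem ha hb)
        _ _ _ fun j hj => ?_) ?_
      · obtain ⟨d, hd, e⟩ := anyL_iff.1 (of_allB h3 hj)
        have := (EV D hi' y hy).grp_mem_clos hd
        rwa [show (EV D hi' y hy).grp d = el D (low d) from rfl, beq_iff.1 e, el, pa_mkc _ inM_pid,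
          ma_mkc _ inM_pid, toM_pid, map_one, mul_one] at this
      · rw [hC] at hg
        refine gen_le (((EV D hi' y hy).clos gens).comap D.φ) (fun c hc => ?_) hg
        obtain ⟨d, hd, e⟩ := anyL_iff.1 (allL_iff.1 h4 c hc)
        have := (EV D hi' y hy).grp_mem_clos hd
        have hc' := inM_of_chainChk h1 c hc
        rwa [show (EV D hi' y hy).grp d = el D (low d) from rfl, beq_iff.1 e, el, ← mkc_zero c,
          pa_mkc _ hc', ma_mkc _ hc', D.σ_zero, one_mul] at this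
  refine ⟨fun s hs => ?_, fun a ha => ?_⟩
  · obtain ⟨a, ha, e⟩ := (h8 s (of_allB h7 hs)).resolve_left (by simp)
    obtain ⟨g, -, e⟩ := H42.Cj.mem_orbit.1 ((EV D hi' y hy).reach_mem_orbit h2 ⊤ (fun _ _ => trivial)
      (h5 a ha) e)
    exact ⟨a, ha, isConj_iff.2 ⟨g, e⟩⟩
  · obtain ⟨t, ht⟩ := h6 a ha
    have e := (EV D hi' y hy).ncard_orbit_clos h2 (h5 a ha) ht
    rw [hA] at e
    refine ⟨pre D (centralizer {toM y}) ⊓ centralizer {XX D y a.1},
      inf_le_inf_right _ (pre_le D _), ?_⟩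
    rw [← hn, ← card_pre D hi', card_eq_ncard_orbit_mul (pre D (centralizer {toM y})) (H42.Cj.mk (XX D y a.1)), H42.Cj.stabilizer_eq, ← e]
    rfl

theorem conj_rep (k : KK) : ∃ i < 26, ∃ s < 2048, IsConj (XX D (H43.nthN H49.m24reps i) s) (D.ψ k) ∧
    IsConj (toM (H43.nthN H49.m24reps i)) k.g ∧ orderOf k.g = H43.nthN H49.m24t_os i := by
  obtain ⟨i, hi, h1, h2, -⟩ := H49.m24_class k.g
  obtain ⟨c, hc⟩ := isConj_iff.1 h1
  refine ⟨i, hi, _, syn_lt (mask ((inK c)⁻¹ * k * inK c).s), isConj_iff.2 ⟨D.ψ (inK c), ?_⟩, h1, h2⟩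
  have : ((inK c)⁻¹ * k * inK c).g = toM (H43.nthN H49.m24reps i) := by
    show c⁻¹ * k.g * c = _
    rw [← hc]; group
  rw [XX, ← this, ← ψ_nu, map_mul, map_mul, map_inv]
  group

/-! ### Fusion by the further generator -/

/-- The key of a code. -/
noncomputable def ky (a : ℕ) : ℕ := frc a fun a => mkc (syn (ma a)) (pa a)

/-- The code of a coset element. -/
noncomputable def xc (y s : ℕ) : ℕ := mkc (xorC bs s 11) y

/-- The conjugate of a code. -/
noncomputable def kcj (k a : ℕ) : ℕ := kmul (kmul k a) (kinv k)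

theorem RK_kcj {c a : ℕ} {k l : KK} (h1 : RK c k) (h2 : RK a l) : RK (kcj c a) (k * l * k⁻¹) :=
  RK_mul (RK_mul h1 h2) (RK_inv h1)

theorem ψ_RK' {a : ℕ} {k : KK} (h : RK a k) : D.ψ k = XX D (pa a) (syn (ma a)) := by
  rw [D.ψ_RK h, D.σ_syn h.2.1 h.even]; rfl

theorem ψ_ky {a b : ℕ} {k l : KK} (h1 : RK a k) (h2 : RK b l) (e : ky a = ky b) : D.ψ k = D.ψ l := by
  have e1 := congrArg pa e
  have e2 := congrArg ma e
  simp only [ky, frc_eq, pa_mkc _ h1.1, pa_mkc _ h2.1, ma_mkc _ h1.1, ma_mkc _ h2.1] at e1 e2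
  rw [ψ_RK' D h1, ψ_RK' D h2, e1, e2]

theorem ψ_xc {y s : ℕ} (hy : inM y = true) {k : KK} (h : RK (xc y s) k) : D.ψ k = XX D y s := by
  rw [D.ψ_RK h, xc, pa_mkc _ hy, ma_mkc _ hy]; rfl

/-- The check that two coset elements are conjugate. -/
noncomputable def edgeB (y s y' s' k k' : ℕ) : Bool :=
  andB (inM y) (andB (inM y') (andB (valid (xc y s)) (andB (valid (xc y' s')) (andB (valid k)
    (andB (valid k') (frc (kcj k (xc y s)) fun c =>
      andB (inT c) (Nat.beq (ky (tau c)) (ky (kcj k' (xc y' s'))))))))))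

theorem edge_spec {y s y' s' k k' : ℕ} (h : edgeB y s y' s' k k' = true) :
    IsConj (XX D y' s') (XX D y s) := by
  obtain ⟨h1, h⟩ := andB_iff.1 h
  obtain ⟨h2, h⟩ := andB_iff.1 h
  obtain ⟨h3, h⟩ := andB_iff.1 h
  obtain ⟨h4, h⟩ := andB_iff.1 h
  obtain ⟨h5, h⟩ := andB_iff.1 h
  obtain ⟨h6, h⟩ := andB_iff.1 h
  obtain ⟨h7, h⟩ := andB_iff.1 h
  obtain ⟨a, ha⟩ := exists_of_valid h3
  obtain ⟨b, hb⟩ := exists_of_valid h4
  obtain ⟨c, hc⟩ := exists_of_valid h5
  obtain ⟨d, hd⟩ := exists_of_valid h6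
  obtain ⟨u, v, hu, hv, e⟩ := D.tau_spec h7
  rw [CK.R_fun hu (RK_kcj hc ha), ψ_ky D hv (RK_kcj hd hb) (beq_iff.1 h), map_mul, map_mul, map_mul,
    map_mul, map_inv, map_inv, ψ_xc D h1 ha, ψ_xc D h2 hb] at e
  refine isConj_iff.2 ⟨(D.ψ c)⁻¹ * D.t * D.ψ d, ?_⟩
  calc _ = (D.ψ c)⁻¹ * (D.t * (D.ψ d * XX D y' s' * (D.ψ d)⁻¹)) * D.t⁻¹ * D.ψ c := by group
    _ = _ := by rw [← e]; group

end Cfsg.Agent.H78.J4C
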