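import Cfsg.Agent.H78.J4Cov
import Cfsg.Prelude.Def_TwoFusion

/-! The classes of elements of order divisible by seven. -/

set_option autoImplicit false
set_option linter.unusedSectionVars false
set_option maxRecDepth 100000

namespace Cfsg.Agent.H78.J4C
open Subgroup H33.J4O Equiv

/-- Class representatives of the symmetric group of degree five, with centraliser orders. -/
def reps5 : List (Perm (Fin 5) × ℕ) := [(1, 120), (swap 0 1, 12), (swap 0 1 * swap 2 3, 8),
  (swap 0 1 * swap 1 2, 6), (swap 0 1 * swap 1 2 * swap 2 3, 4), (swap 0 1 * swap 1 2 * swap 3 4, 6),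
  (swap 0 1 * swap 1 2 * swap 2 3 * swap 3 4, 5)]

/-- The numbers of points fixed by a permutation and by its square. -/
def sig5 (σ : Perm (Fin 5)) : ℕ × ℕ :=
  ((List.finRange 5).countP fun i => σ i = i, (List.finRange 5).countP fun i => σ (σ i) = i)

theorem reps5_cover' : ∀ σ : Perm (Fin 5), ∃ r ∈ reps5, sig5 r.1 = sig5 σ ∧
    ∃ c : Perm (Fin 5), ∀ i, c (r.1 i) = σ (c i) := by
  decide +kernel

theorem reps5_cover (σ : Perm (Fin 5)) : ∃ r ∈ reps5, ∃ c : Perm (Fin 5), c * r.1 = σ * c := by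
  obtain ⟨r, hr, -, c, hc⟩ := reps5_cover' σ
  exact ⟨r, hr, c, Equiv.ext hc⟩

theorem reps5_card : ∀ r ∈ reps5,
    (Finset.univ.filter fun c : Perm (Fin 5) => c * r.1 = r.1 * c).card = r.2 := by
  decide +kernel

theorem reps5_cc {r : Perm (Fin 5) × ℕ} (hr : r ∈ reps5) : cc r.1 = r.2 := by
  rw [← reps5_card r hr, cc, ← Fintype.card_subtype, ← Nat.card_eq_fintype_card]
  exact Nat.card_congr (Equiv.subtypeEquivRight fun c => mcs)

variable {G : Type*} [Group G] [Finite G]

theorem mem_of_prod {p : ℕ} (hp : p.Prime) {s : G} (hs : orderOf s = p) {I : Subgroup G}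
    (h : IsInternalDirectProduct (zpowers s) I (centralizer ((zpowers s : Subgroup G) : Set G)))
    {u : G} (hu : u * s = s * u) (ho : ¬ p ∣ orderOf u) : u ∈ I := by
  obtain ⟨-, -, h3, -, h5⟩ := h
  have hn : I ≤ normalizer ((zpowers s : Subgroup G) : Set G) := fun b hb =>
    mem_norm_of fun a ha => by rw [← h3 a ha b hb, mul_inv_cancel_right]; exact ha
  have h6 : u ∈ zpowers s ⊔ I := by rw [h5, cent_zpowers]; exact mcs.2 hu
  rw [← SetLike.mem_coe, coe_mul_of_right_le_normalizer_left _ _ hn] at h6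
  obtain ⟨a, ha, b, hb, rfl⟩ := h6
  refine mem_of_pow (hp.coprime_iff_not_dvd.2 ho) ?_ (by rw [pow_orderOf_eq_one]; exact one_mem _)
  show (a * b) ^ p ∈ I
  rw [Commute.mul_pow (h3 a ha b hb), ← hs, zp_pow ha, one_mul]
  exact I.pow_mem hb _

theorem cov7 (hsq : ¬ 7 ^ 2 ∣ Nat.card G) {s : G} (hs : orderOf s = 7) {I : Subgroup G}
    (h : IsInternalDirectProduct (zpowers s) I (centralizer ((zpowers s : Subgroup G) : Set G)))
    (e : I ≃* Perm (Fin 5))
    (hN : Nat.card (normalizer ((zpowers s : Subgroup G) : Set G)) =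
      3 * Nat.card (centralizer ((zpowers s : Subgroup G) : Set G))) :
    Cov {g : G | 7 ∣ orderOf g} (List.replicate 2 [840, 84, 56, 42, 28, 42, 35]).flatten := by
  have hp : Nat.Prime 7 := by norm_num
  rw [cent_zpowers] at hN
  refine (cov_cyc (q := 0) (r := 3) hp hsq hs (by norm_num) hN (by norm_num) fun a ha a1 =>
    ⟨reps5.map fun r => (e.symm r.1, 7 * r.2), rfl, fun x hx => ?_, fun u hu o1 _ => ?_⟩).mono
    fun g hg => ⟨hg, by simpa using (orderOf_pos g).ne'⟩
  · obtain ⟨r, hr, rfl⟩ := List.mem_map.1 hx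
    have h7 : Nat.Coprime 7 r.2 := by
      have : ∀ r ∈ reps5, Nat.Coprime 7 r.2 := by decide
      exact this r hr
    refine le_cc (h7.mul_dvd_of_dvd_of_dvd (hs ▸ ord_dvd_cc ?_) ?_)
    · show s * (a * (e.symm r.1 : G)) = a * (e.symm r.1 : G) * s
      rw [← mul_assoc, zp_comm ha rfl, mul_assoc, h.2.2.1 s (mem_zpowers s) _ (e.symm r.1).2, mul_assoc]
    · rw [← reps5_cc hr, cc, ← card_map_of_injective (f := I.subtype.comp e.symm.toMonoidHom)
        (I.subtype_injective.comp e.symm.injective)]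
      refine dvd_cc ?_
      rintro _ ⟨c, hc, rfl⟩
      show (e.symm c : G) * (a * (e.symm r.1 : G)) = a * (e.symm r.1 : G) * e.symm c
      rw [← mul_assoc, ← h.2.2.1 a ha _ (e.symm c).2, mul_assoc, mul_assoc, ← coe_mul, ← coe_mul,
        ← map_mul, ← map_mul, mcs.1 hc]
  · have h1 := mem_of_prod hp hs h ((comm_iff_of_mem hp hs ha a1 u).1 hu) o1
    obtain ⟨r, hr, c, hc⟩ := reps5_cover (e ⟨u, h1⟩)
    refine ⟨_, List.mem_map.2 ⟨r, hr, rfl⟩, e.symm c, (h.2.2.1 a ha _ (e.symm c).2).symm, ?_⟩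
    show (e.symm c : G) * (e.symm r.1 : G) * _ = u
    rw [← coe_mul, ← map_mul, hc, map_mul, e.symm_apply_apply, coe_mul, mul_inv_cancel_right]

end Cfsg.Agent.H78.J4C
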