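import Cfsg.Agent.H78.J4NV
import Cfsg.Agent.H78.J4S5
import Cfsg.Agent.H46.Cls

/-! The centraliser of an element of order five. -/

set_option autoImplicit false
set_option linter.unusedSectionVars false
set_option maxRecDepth 1000000

namespace Cfsg.Agent.H78.J4C
open Subgroup MulAction H33.J4O H42 H46 H46.J4
open scoped Pointwise

theorem RK_xc {g : ℕ} (hg : inM g = true) (s : ℕ) : ∃ k, RK (xc g s) k := by
  obtain ⟨h1, h2⟩ := xorC_induction (fun a => a < 2 ^ 24 ∧ Even (toSet a).card)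
    ⟨by norm_num, by rw [toSet_zero]; simp⟩ (fun a b ha hb => ⟨xor_lt ha.1 hb.1, by
      rw [show a ^^^ b = Nat.xor a b from rfl, toSet_xor]; exact even_symmDiff ha.2 hb.2⟩) bs s 11
    fun j hj => ⟨(valid_bs j hj).2.1, by
      rw [card_toSet (valid_bs j hj).2.1, Nat.even_iff]; exact (valid_bs j hj).2.2⟩
  exact ⟨⟨_, toM g, h2⟩, RK_mkc hg h1 rfl rfl⟩

theorem pa_ky {a : ℕ} (h : inM (pa a) = true) : pa (ky a) = pa a := by rw [ky, frc_eq, pa_mkc _ h]
theorem ma_ky {a : ℕ} (h : inM (pa a) = true) : ma (ky a) = syn (ma a) := by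
  rw [ky, frc_eq, ma_mkc _ h]

/-- The code of the element with a given key. -/
noncomputable def up (d : ℕ) : ℕ := frc d fun d => xc (pa d) (ma d)

theorem up_eq (d : ℕ) : up d = xc (pa d) (ma d) := by rw [up, frc_eq]

variable {G : Type*} [Group G] [Finite G] (D : Dat G)

/-- The element with a given key. -/
noncomputable def dc (d : ℕ) : G := XX D (pa d) (ma d)

theorem dc_ky {a : ℕ} {k : KK} (h : RK a k) : dc D (ky a) = D.ψ k := by
  rw [dc, pa_ky h.1, ma_ky h.1, ψ_RK' D h]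

theorem RK_up {d : ℕ} (h : inM (pa d) = true) : ∃ k, RK (up d) k ∧ D.ψ k = dc D d := by
  obtain ⟨k, hk⟩ := RK_xc h (ma d)
  exact ⟨k, up_eq d ▸ hk, ψ_xc D h hk⟩

theorem dc_inj (hi : Inj D) {a b : ℕ} (ha : inM (pa a) = true ∧ ma a < 2048)
    (hb : inM (pa b) = true ∧ ma b < 2048) (e : dc D a = dc D b) : a = b := by
  obtain ⟨h1, h2⟩ := hi _ ha.2 _ hb.2 _ _ e
  have h2 := toM_inj ha.1 hb.1 h2
  rw [ma_eq, ma_eq] at h1
  rw [pa_eq, pa_eq] at h2
  rw [← Nat.div_add_mod a (2 ^ 120), h1, h2, Nat.div_add_mod]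

theorem ky_ok {a : ℕ} {k : KK} (h : RK a k) : inM (pa (ky a)) = true ∧ ma (ky a) < 2048 := by
  rw [pa_ky h.1, ma_ky h.1]; exact ⟨h.1, syn_lt _⟩

/-- The coding of the elements of `2^11:M24`. -/
noncomputable def CJ (hi : Inj D) : Coded ⟨OK.mul, OK.one, ky⟩ G :=
  CK.push D.ψ ky fun h1 h2 => ⟨ψ_ky D h1 h2, fun e =>
    dc_inj D hi (ky_ok h1) (ky_ok h2) (by rw [dc_ky D h1, dc_ky D h2, e])⟩

theorem ord_XX (hi : Inj D) {y s n : ℕ} {l : List ℕ} (hy : inM y = true) (h1 : 0 < n) (h2 : n < 4096)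
    (hl : ∀ p ∈ n.primeFactorsList, p ∈ l)
    (h : Ops.ordChk ⟨OK.mul, OK.one, ky⟩ (xc y s) n l = true) : orderOf (XX D y s) = n := by
  obtain ⟨k, hk⟩ := RK_xc hy s
  exact (CJ D hi).orderOf_of_ordChk ⟨k, hk, ψ_xc D hy hk⟩ h1 h2 hl h

/-- Left multiplication on keys. -/
noncomputable def actL (g d : ℕ) : ℕ := ky (kmul g (up d))
/-- Conjugation on keys. -/
noncomputable def actC (g d : ℕ) : ℕ := ky (kcj g (up d))

/-- The encoding of left multiplication. -/
noncomputable def EL (hi : Inj D) : Enc G G where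
  ok g := valid g = true
  grp := el D
  valid d := inM (pa d) = true ∧ ma d < 2048
  dec := dc D
  act := actL
  act_valid g d hg hd := by
    obtain ⟨k, hk⟩ := exists_of_valid hg
    obtain ⟨l, hl, -⟩ := RK_up D hd.1
    exact ky_ok (RK_mul hk hl)
  dec_act g d hg hd := by
    obtain ⟨k, hk⟩ := exists_of_valid hg
    obtain ⟨l, hl, e⟩ := RK_up D hd.1
    rw [actL, dc_ky D (RK_mul hk hl), map_mul, e, D.ψ_RK hk]; rfl
  dec_inj _ _ := dc_inj D hi

/-- The encoding of conjugation. -/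
noncomputable def EC (hi : Inj D) : Enc G (H42.Cj G) where
  ok g := valid g = true
  grp := el D
  valid d := inM (pa d) = true ∧ ma d < 2048
  dec d := H42.Cj.mk (dc D d)
  act := actC
  act_valid g d hg hd := by
    obtain ⟨k, hk⟩ := exists_of_valid hg
    obtain ⟨l, hl, -⟩ := RK_up D hd.1
    exact ky_ok (RK_kcj hk hl)
  dec_act g d hg hd := by
    obtain ⟨k, hk⟩ := exists_of_valid hg
    obtain ⟨l, hl, e⟩ := RK_up D hd.1
    rw [actC, dc_ky D (RK_kcj hk hl), map_mul, map_mul, map_inv, e, D.ψ_RK hk]; rfl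
  dec_inj _ _ := dc_inj D hi

/-- The code that gives an element of order five. -/
def k5 : ℕ := 2793057944163432126451187115962793596527954
/-- Generators of the centraliser. -/
def gX : List ℕ := [3854211414673647904775061059112322394209865, 2828935303128480285992672442209011414452288]
/-- Class representatives with class sizes. -/
def rX : List (ℕ × ℕ) := [(984818244535754528103549039458486304, 1),
  (2314046240320670401007356099738830880, 7), (596081743295248979241766940910169364003, 84),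
  (7970475260760802194929347670089772, 224), (601398655278388642733382169151290742307, 42),
  (602727883274173558606285976211571086883, 42), (22250843580019542769255950662110289963, 224),
  (616783462553356182213501033311095887415, 168), (618112690549141098086404840371376231991, 168),
  (21733825936494091739161180038547063849, 192), (74943566359312090480098088415753780270, 192)]

theorem gX_chk : allL (fun g => andB (inT g) (Nat.beq (ky (kmul k5 (tau g))) (ky (kmul g k5)))) gX =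
    true := by decide +kernel

theorem X_chk : orb (actsOf actL gX) pid 1400 false (fun t n => andB (Nat.beq n 1344)
    (andB (allL (fun r => t.mem r.1) rX)
      (covChk (actsOf actC gX) 300 (fun P => t.all P) rX fun _ => false))) = true := by
  decide +kernel

theorem valid_of_inT {g : ℕ} (h : inT g = true) : valid g = true := (andB_iff.1 h).1

theorem dc_pid : dc D pid = 1 := by
  have := dc_ky D RK_one
  rwa [map_one, show ky pid = pid by decide +kernel] at this

attribute [local irreducible] inM valid kmul ky tau inT actL actC orb toM in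
theorem exists_X' (hi : Inj D) {k5 : ℕ} {gX : List ℕ} {rX : List (ℕ × ℕ)}
    (gX_chk : allL (fun g => andB (inT g) (Nat.beq (ky (kmul k5 (tau g))) (ky (kmul g k5)))) gX = true)
    (X_chk : orb (actsOf actL gX) pid 1400 false (fun t n => andB (Nat.beq n 1344)
      (andB (allL (fun r => t.mem r.1) rX)
        (covChk (actsOf actC gX) 300 (fun P => t.all P) rX fun _ => false))) = true)
    {k : KK} (hk : RK k5 k) : ∃ X : Subgroup G, Nat.card X = 1344 ∧
    (∀ x ∈ X, x * (D.ψ k * D.t) = D.ψ k * D.t * x) ∧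
    (∀ r ∈ rX, dc D r.1 ∈ X ∧ r.2 * Nat.card ↥(X ⊓ centralizer {dc D r.1}) = 1344) ∧
    ∀ x ∈ X, ∃ r ∈ rX, ∃ c ∈ X, c * dc D r.1 * c⁻¹ = x := by
  have valid_gX : ∀ g ∈ gX, valid g = true := fun g hg =>
    valid_of_inT (andB_iff.1 (allL_iff.1 gX_chk g hg)).1
  obtain ⟨t, n, h1, h2⟩ := orb_true X_chk
  obtain ⟨h2, h3⟩ := andB_iff.1 h2
  obtain ⟨h3, h4⟩ := andB_iff.1 h3
  obtain ⟨h5, P, h6, h7⟩ := covChk_spec _ _ h4
  have v0 : (EL D hi).valid pid := by
    show inM (pa pid) = true ∧ ma pid < 2048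
    decide +kernel
  have e0 : orbit ((EL D hi).clos gX) ((EL D hi).dec pid) = ((EL D hi).clos gX : Set G) := by
    rw [show (EL D hi).dec pid = 1 from dc_pid D, orbit_subgroup_one_eq_self]
  have e1 := (EL D hi).ncard_orbit_clos valid_gX v0 h1
  have e2 := (EL D hi).orbit_clos_eq valid_gX v0
  rw [e0] at e1 e2
  have e3 : Nat.card ((EL D hi).clos gX) = 1344 := by
    rw [← beq_iff.1 h2, ← e1, ← Nat.card_coe_set_eq, SetLike.coe_sort_coe]
  have v1 : ∀ r ∈ rX, Reach (actsOf actL gX) pid r.1 := fun r hr =>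
    (h1.mem_iff _).1 (allL_iff.1 h3 r hr)
  have v2 : ∀ r ∈ rX, (EC D hi).valid r.1 := fun r hr =>
    (EL D hi).reach_valid valid_gX v0 (v1 r hr)
  refine ⟨(EL D hi).clos gX, e3, fun x hx => mcs.1 (Enc.clos_le _ (centralizer _) (fun g hg => ?_) hx),
    fun r hr => ⟨?_, ?_⟩, fun x hx => ?_⟩
  · obtain ⟨a1, a2⟩ := andB_iff.1 (allL_iff.1 gX_chk g hg)
    obtain ⟨u, v, hu, hv, e⟩ := D.tau_spec a1
    have e' := ψ_ky D (RK_mul hk hv) (RK_mul hu hk) (beq_iff.1 a2)
    rw [map_mul, map_mul] at e'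
    have e4 : D.ψ v * D.t = D.t * D.ψ u :=
      calc D.ψ v * D.t = D.t * D.t * D.ψ v * D.t := by rw [D.tt, one_mul]
        _ = D.t * D.ψ u * (D.t * D.t) := by rw [mul_assoc D.t D.t, ← e]; simp only [mul_assoc]
        _ = _ := by rw [D.tt, mul_one]
    rw [mcs, show (EL D hi).grp g = D.ψ u from (D.ψ_RK hu).symm, ← mul_assoc, ← e', mul_assoc,
      mul_assoc, e4]
  · rw [← SetLike.mem_coe, e2]
    exact ⟨r.1, v1 r hr, rfl⟩
  · obtain ⟨t', ht'⟩ := h5 r hr
    rw [← e3, card_eq_ncard_orbit_mul ((EL D hi).clos gX) (H42.Cj.mk (dc D r.1)), H42.Cj.stabilizer_eq,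
      ← (EC D hi).ncard_orbit_clos valid_gX (v2 r hr) ht']
    rfl
  · rw [← SetLike.mem_coe, e2] at hx
    obtain ⟨d, hd, rfl⟩ := hx
    obtain ⟨r, hr, e⟩ := (h7 d (BT.of_all h6 ((h1.mem_iff d).2 hd))).resolve_left (by simp)
    exact ⟨r, hr, H42.Cj.mem_orbit.1 ((EC D hi).reach_mem_orbit valid_gX _
      (fun _ h => (EL D hi).grp_mem_clos h) (v2 r hr) e)⟩

theorem conj8 : IsConj (XX D (H43.nthN H49.m24reps 6) 1)
    (dc D 616783462553356182213501033311095887415) := by
  obtain ⟨c, hc⟩ := exists_of_valid (a := 1267888715371170426027966685346523393917655) (by decide +kernel)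
  have hy := H49.inM_m24reps (i := 6) (by norm_num)
  obtain ⟨k, hk⟩ := RK_xc hy 1
  have := dc_ky D (RK_kcj hc hk)
  rw [map_mul, map_mul, map_inv, ψ_xc D hy hk, show ky (kcj 1267888715371170426027966685346523393917655
    (xc (H43.nthN H49.m24reps 6) 1)) = 616783462553356182213501033311095887415 by decide +kernel] at this
  exact isConj_iff.2 ⟨_, this.symm⟩

theorem five (hi : Inj D) {k : KK} (hk : RK k5 k) (h5 : orderOf (D.ψ k * D.t) = 5)
    (hsq : ¬ 5 ^ 2 ∣ Nat.card G) (hC : cc (D.ψ k * D.t) = 6720)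
    (hN : Nat.card (normalizer ((zpowers (D.ψ k * D.t) : Subgroup G) : Set G)) = 2 ^ 8 * 3 * 5 * 7) :
    5 ∣ cc (XX D (H43.nthN H49.m24reps 6) 1) ∧ Cov {g : G | 5 ∣ orderOf g ∧ ¬ 7 ∣ orderOf g}
      (List.replicate 1 [6720, 960, 80, 30, 160, 160, 30, 40, 40]).flatten := by
  obtain ⟨X, x1, x2, x3, x4⟩ := exists_X' D hi gX_chk X_chk hk
  generalize D.ψ k * D.t = f at *
  have hp : Nat.Prime 5 := by norm_num
  refine ⟨?_, cov_cyc (r := 4) hp hsq h5 (by norm_num) (by rw [hN, hC]; norm_num) (by norm_num)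
    fun a ha a1 => ⟨(rX.take 9).map fun r => (dc D r.1, 5 * (1344 / r.2)), by
      rw [List.map_map]; rfl, fun x hx => ?_, fun u hu o1 o2 => ?_⟩⟩
  · rw [cc_conj (conj8 D), ← h5]
    exact ord_dvd_cc (x2 _ (x3 (_, 168) (by simp [rX])).1).symm
  · obtain ⟨r, hr, rfl⟩ := List.mem_map.1 hx
    obtain ⟨r1, r2⟩ := x3 r (List.mem_of_mem_take hr)
    have h0 : 0 < r.2 := Nat.pos_of_ne_zero fun e => by rw [e] at r2; omega
    show 5 * (1344 / r.2) ≤ cc (a * dc D r.1)
    rw [← r2, Nat.mul_div_cancel_left _ h0]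
    refine le_cc (Nat.Coprime.mul_dvd_of_dvd_of_dvd (Nat.Coprime.coprime_dvd_right
      (Dvd.intro_left _ r2) (by norm_num)) (h5 ▸ ord_dvd_cc ?_) (dvd_cc fun c hc => ?_))
    · exact (Commute.mul_right (zp_comm ha rfl : Commute _ _) (x2 _ r1).symm).eq
    · exact (Commute.mul_right (zp_comm ha (x2 c hc.1) : Commute _ _) (mcs.1 hc.2)).eq
  · have h1 : zpowers f ≤ centralizer {f} := zpowers_le.2 (mcs.2 rfl)
    have h2 : X ≤ centralizer {f} := fun x hx => mcs.2 (x2 x hx)
    have h3 : u ∈ X := by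
      refine mem_of_prod hp h5 ?_ ((comm_iff_of_mem hp h5 ha a1 u).1 hu) o1
      rw [cent_zpowers]
      refine ⟨h1, h2, fun a ha b hb => (zp_comm ha (x2 b hb)).symm, (disjoint_of_coprime_natCard (by
        rw [Nat.card_zpowers, h5, x1]; norm_num)).eq_bot, eq_of_le_of_card_ge (sup_le h1 h2) ?_⟩
      refine hC.le.trans (Nat.le_of_dvd Nat.card_pos (Nat.Coprime.mul_dvd_of_dvd_of_dvd (m := 5)
        (n := 1344) (by norm_num) (h5 ▸ ord_dvd (mem_sup_left (mem_zpowers f)))
        (x1 ▸ card_dvd_of_le le_sup_right)))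
    obtain ⟨r, hr, c, hc, rfl⟩ := x4 u h3
    rw [← List.take_append_drop 9 rX] at hr
    rcases List.mem_append.1 hr with hr | hr
    · exact ⟨_, List.mem_map.2 ⟨r, hr, rfl⟩, c, zp_comm ha (x2 c hc), rfl⟩
    · refine absurd ?_ o2
      rw [orderOf_cj]
      have : ∀ r ∈ rX.drop 9, inM (pa r.1) = true ∧
          Ops.ordChk ⟨OK.mul, OK.one, ky⟩ (xc (pa r.1) (ma r.1)) 7 [2, 3, 7] = true := by
        decide +kernel
      exact (ord_XX D hi (this r hr).1 (by norm_num) (by norm_num) (by simp) (this r hr).2).symm.dvd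

end Cfsg.Agent.H78.J4C
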