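import Cfsg.Agent.H78.PcEnd
import Cfsg.Agent.H42.PcDefs
import Cfsg.Agent.S0205

/-! Project PC (row S3916): `FinStmt` from `C2Stmt` and `TransStmt`. -/

set_option autoImplicit false

namespace Cfsg.Agent.H78.PcFin

open Subgroup Cfsg.Agent.H42.Pc

universe u

theorem sq_normal {G : Type u} [Group G] (T : Subgroup G) [h : T.Normal] : (Sq T).Normal := by
  refine ⟨fun x hx g => ?_⟩
  have : Sq T ≤ (Sq T).comap (MulAut.conj g).toMonoidHom := by
    refine (closure_le _).2 ?_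
    rintro _ ⟨w, hw, rfl⟩
    refine subset_closure ⟨g * w * g⁻¹, h.conj_mem w hw g, ?_⟩
    show g * (w * w) * g⁻¹ = _
    group
  exact this hx

theorem sq_le {G : Type u} [Group G] (T : Subgroup G) : Sq T ≤ T := by
  refine (closure_le _).2 ?_
  rintro _ ⟨w, hw, rfl⟩
  exact mul_mem hw hw

theorem end2 (trans : TransStmt.{u}) (G : Type u) [Group G] [Finite G] (T U : Subgroup G)
    (c : Cf2 T U) (hU : Even U.index) : Sq T = ⊥ := by
  haveI : Fact (Nat.Prime 2) := ⟨Nat.prime_two⟩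
  haveI := c.nT
  haveI := c.nU
  haveI := sq_normal T
  obtain ⟨P⟩ : Nonempty (Sylow 2 G) := inferInstance
  have UP : U ≤ P := c.pU.le_sylow_of_normal P
  have TP : T ≤ P := c.le.trans UP
  have hn : ¬ (P : Subgroup G) ≤ U := fun h => P.not_dvd_index
    (le_antisymm h UP ▸ even_iff_two_dvd.1 hU)
  obtain ⟨t, tP, tU⟩ := SetLike.not_le_iff_exists.1 hn
  have s1 : ∀ w ∈ U, QuotientGroup.mk' (Sq T) w * QuotientGroup.mk' (Sq T) w = 1 := fun w hw => by
    rw [← map_mul]; exact (QuotientGroup.eq_one_iff _).2 (c.sq w hw)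
  have s2 : ∀ w ∈ U, (QuotientGroup.mk' (Sq T) w)⁻¹ = QuotientGroup.mk' (Sq T) w := fun w hw =>
    inv_eq_of_mul_eq_one_right (s1 w hw)
  have key := PcEnd.fin P.isPGroup' (T.subgroupOf P) ((Sq T).subgroupOf P)
    (fun x hx => sq_le T hx) (fun a b ha hb => ?_) (fun w hw => c.sq w ((c.mem _).2 hw))
    (fun z z0 zz zc v hv => ?_) (fun y y0 yy x hx => ?_) ⟨t, tP⟩ (fun h => tU ((c.mem t).2 h))
  · rw [subgroupOf_eq_bot] at key
    exact (disjoint_iff.1 key).symm ▸ (inf_of_le_left ((sq_le T).trans TP)).symm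
  · have ha' : (a : G) ∈ U := (c.mem _).2 ha
    have hb' : (b : G) ∈ U := (c.mem _).2 hb
    have := s2 _ (mul_mem ha' hb')
    rw [map_mul, mul_inv_rev, s2 _ ha', s2 _ hb'] at this
    exact sq_le T ((PcEnd.cq (Sq T) (a : G) b).2 this.symm)
  · obtain ⟨g, hg, e⟩ := trans G T U P z c ((c.mem _).2 zz) z0 (fun g hg => by
      have h1 : g * z * g⁻¹ * (z : G)⁻¹ ∈ T := zc ⟨g, hg⟩
      have h2 := c.nT.conj_mem _ h1 (z : G)⁻¹
      have e : (z : G)⁻¹ * (g * z * g⁻¹ * (z : G)⁻¹) * (z : G)⁻¹⁻¹ = (z : G)⁻¹ * (g * z * g⁻¹) := by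
        group
      rwa [e] at h2) v hv
    exact ⟨⟨g, hg⟩, e⟩
  · have h1 : Sq T ≤ Dr T (y : G) := by
      refine (closure_le _).2 ?_
      rintro _ ⟨w, hw, rfl⟩
      exact c.dr y ((c.mem _).2 yy) y0 w hw
    have e : (T.subgroupOf P ⊔ zpowers y).map (P : Subgroup G).subtype = Ext T (y : G) := by
      rw [Subgroup.map_sup, subgroupOf_map_subtype, inf_of_le_left TP, MonoidHom.map_zpowers]
      rfl
    have h2 : (x : G) ∈ (⁅T.subgroupOf P ⊔ zpowers y, T.subgroupOf P ⊔ zpowers y⁆).map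
        (P : Subgroup G).subtype := by
      rw [map_commutator, e]
      exact h1 hx
    obtain ⟨x', hx', e'⟩ := h2
    exact (Subtype.ext e' : x' = x) ▸ hx'

theorem fin (c2 : C2Stmt.{u}) (trans : TransStmt.{u}) : FinStmt.{u} := by
  intro G _ _ T c hc
  haveI : Fact (Nat.Prime 2) := ⟨Nat.prime_two⟩
  obtain ⟨U, d⟩ := c2 G T c hc
  haveI := d.nU
  haveI := d.nT
  have ho : Odd U.index := by
    by_contra he
    have he := Nat.not_odd_iff_even.1 he
    have e := end2 trans G T U d he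
    have hT : Even T.index := he.trans_dvd (index_dvd_of_le d.le) 
    obtain ⟨x, hx⟩ := exists_prime_orderOf_dvd_card' (G := G ⧸ T) 2 (even_iff_two_dvd.1 hT)
    obtain ⟨y, rfl⟩ := QuotientGroup.mk_surjective x
    have h1 : y * y ∈ T := by
      rw [← QuotientGroup.eq_one_iff, QuotientGroup.mk_mul, ← pow_two, ← hx, pow_orderOf_eq_one]
    have h2 := d.sq y ((d.mem y).2 h1)
    rw [e, mem_bot] at h2
    have h3 := (QuotientGroup.eq_one_iff y).2 (c.ni y h2)
    rw [h3, orderOf_one] at hx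
    omega
  haveI := d.pU.isNilpotent
  haveI : Group.IsSolvable (G ⧸ U) := Cfsg.Agent.S0205.result ho
  exact solvable_of_ker_le_range U.subtype (QuotientGroup.mk' U)
    (by rw [QuotientGroup.ker_mk', range_subtype])

end Cfsg.Agent.H78.PcFin
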