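import Mathlib
import Cfsg.Agent.H81.QTDefs

/-! Criteria for `Fat` and `Rk2` in terms of commuting elements of order `p`. -/

set_option autoImplicit false

namespace Cfsg.Agent.H78.QTE

open Cfsg Subgroup Cfsg.Agent.H81.QT
open scoped commutatorElement

variable {S G : Type*} [Group S] [Group G]

/-- The powers of an element of order dividing `p`. -/
def pw {p : ℕ} [NeZero p] (a : S) (ha : a ^ p = 1) : Multiplicative (ZMod p) →* S where
  toFun i := a ^ i.toAdd.val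
  map_one' := by simp
  map_mul' i j := by rw [toAdd_mul, ZMod.val_add, ← pow_add, ← pow_eq_pow_mod _ ha]

theorem pw_apply {p : ℕ} [NeZero p] (a : S) (ha : a ^ p = 1) (i : Multiplicative (ZMod p)) :
    pw a ha i = a ^ i.toAdd.val := rfl

theorem ea_range {V : Type*} [CommGroup V] {p : ℕ} (hV : ∀ v : V, v ^ p = 1) (φ : V →* S) :
    IsElementaryAbelian p φ.range := by
  refine ⟨⟨⟨?_⟩⟩, ?_⟩
  · rintro ⟨_, a, rfl⟩ ⟨_, b, rfl⟩
    exact Subtype.ext (by simp only [Subgroup.coe_mul, ← map_mul, mul_comm])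
  · rintro _ ⟨a, rfl⟩
    rw [← map_pow, hV, map_one]

theorem mz_pow {p : ℕ} (v : Multiplicative (ZMod p)) : v ^ p = 1 := by
  rw [← ofAdd_toAdd v, ← ofAdd_nsmul, nsmul_eq_mul, ZMod.natCast_self, zero_mul, ofAdd_zero]

theorem mz_eq_one {p : ℕ} [NeZero p] {v : Multiplicative (ZMod p)} (h : p ∣ v.toAdd.val) : v = 1 := by
  have := Nat.eq_zero_of_dvd_of_lt h (ZMod.val_lt _)
  rw [ZMod.val_eq_zero] at this
  rw [← ofAdd_toAdd v, this, ofAdd_zero]

theorem card_mz (p : ℕ) : Nat.card (Multiplicative (ZMod p)) = p :=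
  (Nat.card_congr Multiplicative.toAdd).trans (Nat.card_zmod p)

theorem rk2_of_two {p : ℕ} (hp : p.Prime) (h2 : p ≠ 2) {a b : S} (hab : Commute a b) (ha : a ^ p = 1)
    (hb : b ^ p = 1) (ind : ∀ i j : ℕ, a ^ i * b ^ j = 1 → p ∣ i ∧ p ∣ j) : Rk2 S := by
  have : NeZero p := ⟨hp.ne_zero⟩
  let φ := (pw a ha).noncommCoprod (pw b hb) fun i j => hab.pow_pow _ _
  have hφ : Function.Injective φ := (injective_iff_map_eq_one φ).2 fun v hv => by
    obtain ⟨h1, h3⟩ := ind _ _ hv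
    exact Prod.ext (mz_eq_one h1) (mz_eq_one h3)
  have hE := ea_range (p := p) (fun v => Prod.ext (mz_pow v.1) (mz_pow v.2)) φ
  refine ⟨p, hp, h2, fun h => ?_⟩
  have := h _ hE.1 hE.2
  rw [← Nat.card_congr (MonoidHom.ofInjective hφ).toEquiv, Nat.card_prod, card_mz, pow_one] at this
  have := hp.two_le
  nlinarith

theorem fat_of_three {p : ℕ} (hp : p.Prime) (h2 : p ≠ 2) {a b c : S} (hab : Commute a b) (hac : Commute a c)
    (hbc : Commute b c) (ha : a ^ p = 1) (hb : b ^ p = 1) (hc : c ^ p = 1)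
    (ind : ∀ i j k : ℕ, a ^ i * (b ^ j * c ^ k) = 1 → p ∣ i ∧ p ∣ j ∧ p ∣ k)
    (hinv : ∀ g ∈ [a, b, c], ∃ h : S, h * g * h⁻¹ = g⁻¹ ∧
      ∀ g' ∈ [a, b, c], h * g' * h⁻¹ = g' ∨ h * g' * h⁻¹ = g'⁻¹) : Fat S := by
  have : NeZero p := ⟨hp.ne_zero⟩
  let ψ := (pw b hb).noncommCoprod (pw c hc) fun i j => hbc.pow_pow _ _
  let φ := (pw a ha).noncommCoprod ψ fun i j => (hab.pow_pow _ _).mul_right (hac.pow_pow _ _)
  have eφ : ∀ v, φ v = a ^ v.1.toAdd.val * (b ^ v.2.1.toAdd.val * c ^ v.2.2.toAdd.val) := fun v => rfl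
  have hφ : Function.Injective φ := (injective_iff_map_eq_one φ).2 fun v hv => by
    obtain ⟨h1, h3, h4⟩ := ind _ _ _ hv
    exact Prod.ext (mz_eq_one h1) (Prod.ext (mz_eq_one h3) (mz_eq_one h4))
  have hE := ea_range (p := p) (fun v => Prod.ext (mz_pow v.1) (Prod.ext (mz_pow v.2.1) (mz_pow v.2.2))) φ
  have h1 : (1 : ZMod p).val = 1 := by
    have : Fact (1 < p) := ⟨hp.one_lt⟩
    exact ZMod.val_one p
  have hm : ∀ g ∈ [a, b, c], g ∈ φ.range := by
    simp only [List.forall_mem_cons, List.not_mem_nil, IsEmpty.forall_iff, implies_true, and_true]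
    refine ⟨⟨(Multiplicative.ofAdd 1, 1, 1), ?_⟩, ⟨(1, Multiplicative.ofAdd 1, 1), ?_⟩,
      ⟨(1, 1, Multiplicative.ofAdd 1), ?_⟩⟩ <;> simp [eφ, h1]
  have hle : ∀ K : Subgroup S, (∀ g ∈ [a, b, c], g ∈ K) → φ.range ≤ K := by
    rintro K hK _ ⟨v, rfl⟩
    rw [eφ]
    exact mul_mem (pow_mem (hK a (by simp)) _) (mul_mem (pow_mem (hK b (by simp)) _) (pow_mem (hK c (by simp)) _))
  have : Finite φ.range := Finite.of_equiv _ (MonoidHom.ofInjective hφ).toEquiv
  refine ⟨p, hp, h2, φ.range, hE, Or.inr ⟨?_, le_antisymm ?_ (hle _ fun g hg => ?_)⟩⟩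
  · rw [← Nat.card_congr (MonoidHom.ofInjective hφ).toEquiv, Nat.card_prod, Nat.card_prod,
      card_mz]
    ring
  · refine Subgroup.commutator_le.2 fun e he n hn => ?_
    rw [commutatorElement_def, mul_assoc, mul_assoc, ← mul_assoc n]
    exact mul_mem he ((Subgroup.mem_normalizer_iff.1 hn _).1 (inv_mem he))
  · obtain ⟨h, e1, e2⟩ := hinv g hg
    have hn : h ∈ normalizer (φ.range : Set S) := by
      refine Subgroup.mem_normalizer_fintype fun n hn => ?_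
      refine hle (φ.range.comap (MulAut.conj h).toMonoidHom) (fun g' hg' => ?_) hn
      show h * g' * h⁻¹ ∈ φ.range
      rcases e2 g' hg' with e | e <;> rw [e]
      exacts [hm g' hg', inv_mem (hm g' hg')]
    have h3 := Subgroup.commutator_mem_commutator (hm g hg) hn
    have h4 : ⁅g, h⁆ = g ^ 2 := by
      rw [commutatorElement_def, mul_assoc, mul_assoc, ← mul_assoc h,
        show h * g⁻¹ * h⁻¹ = (h * g * h⁻¹)⁻¹ by group, e1, inv_inv, sq]
    obtain ⟨m, hm'⟩ := hp.odd_of_ne_two h2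
    have h5 : g = (g ^ 2) ^ (m + 1) := by
      rw [← pow_mul, show 2 * (m + 1) = p + 1 by omega, pow_succ, hE.2 g (hm g hg), one_mul]
    rw [h5, ← h4]
    exact pow_mem h3 _

theorem ea_closure {p : ℕ} {A : Set G} (h1 : ∀ a ∈ A, ∀ b ∈ A, Commute a b) (h2 : ∀ a ∈ A, a ^ p = 1) :
    IsElementaryAbelian p (closure A) := by
  have h3 : ∀ x ∈ closure A, ∀ y ∈ closure A, Commute x y := fun x hx y hy => by
    have : closure A ≤ centralizer (closure A : Set G) := by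
      rw [Subgroup.closure_le]
      intro a ha
      rw [SetLike.mem_coe, Subgroup.centralizer_closure, Subgroup.mem_centralizer_iff]
      exact fun b hb => h1 b hb a ha
    exact (Subgroup.mem_centralizer_iff.1 (this hy) x hx :)
  refine ⟨⟨⟨fun x y => Subtype.ext (h3 _ x.2 _ y.2)⟩⟩, fun x hx => ?_⟩
  induction hx using Subgroup.closure_induction with
  | mem a ha => exact h2 a ha
  | one => exact one_pow _
  | mul x y hx hy ex ey => rw [(h3 x hx y hy).mul_pow, ex, ey, one_mul]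
  | inv x _ ex => rw [inv_pow, ex, inv_one]

variable (j : S →* G) (hj : Function.Injective j)
include hj

theorem fat_of_card [Finite S] {p : ℕ} (hp : p.Prime) (h2 : p ≠ 2) {E : Subgroup G} (hE : IsElementaryAbelian p E)
    {T : Type*} (f : T → G) (hf : Function.Injective f) (h1 : ∀ t, f t ∈ E ∧ f t ∈ j.range)
    (hT : p ^ 4 ≤ Nat.card T) : Fat S := by
  refine ⟨p, hp, h2, E.comap j, ⟨⟨⟨fun x y => Subtype.ext (hj ?_)⟩⟩, fun x hx => hj ?_⟩, Or.inl (hT.trans ?_)⟩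
  · simpa using congrArg Subtype.val (hE.1.is_comm.comm ⟨j x, x.2⟩ ⟨j y, y.2⟩)
  · rw [map_pow, hE.2 _ hx, map_one]
  · choose g hg using fun t => (h1 t).2
    refine Nat.card_le_card_of_injective (fun t => (⟨g t, ?_⟩ : E.comap j)) fun t t' e => hf ?_
    · rw [Subgroup.mem_comap, hg]; exact (h1 t).1
    · rw [← hg, ← hg, show g t = g t' from congrArg Subtype.val e]

theorem rk2_of_two' {p : ℕ} (hp : p.Prime) (h2 : p ≠ 2) {a b : G} (ma : a ∈ j.range) (mb : b ∈ j.range)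
    (hab : Commute a b) (ha : a ^ p = 1)
    (hb : b ^ p = 1) (ind : ∀ i j : ℕ, a ^ i * b ^ j = 1 → p ∣ i ∧ p ∣ j) : Rk2 S := by
  obtain ⟨a, rfl⟩ := ma
  obtain ⟨b, rfl⟩ := mb
  simp only [← map_pow, ← map_mul, map_eq_one_iff _ hj] at ha hb ind
  exact rk2_of_two hp h2 (hab.of_map hj) ha hb ind

theorem fat_of_three' {p : ℕ} (hp : p.Prime) (h2 : p ≠ 2) {a b c : G} (ma : a ∈ j.range) (mb : b ∈ j.range)
    (mc : c ∈ j.range) (hab : Commute a b) (hac : Commute a c)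
    (hbc : Commute b c) (ha : a ^ p = 1) (hb : b ^ p = 1) (hc : c ^ p = 1)
    (ind : ∀ i j k : ℕ, a ^ i * (b ^ j * c ^ k) = 1 → p ∣ i ∧ p ∣ j ∧ p ∣ k)
    (hinv : ∀ g ∈ [a, b, c], ∃ h ∈ j.range, h * g * h⁻¹ = g⁻¹ ∧
      ∀ g' ∈ [a, b, c], h * g' * h⁻¹ = g' ∨ h * g' * h⁻¹ = g'⁻¹) : Fat S := by
  obtain ⟨a, rfl⟩ := ma
  obtain ⟨b, rfl⟩ := mb
  obtain ⟨c, rfl⟩ := mc
  simp only [← map_pow, ← map_mul, map_eq_one_iff _ hj] at ha hb hc ind
  refine fat_of_three hp h2 (hab.of_map hj) (hac.of_map hj) (hbc.of_map hj) ha hb hc ind fun g hg => ?_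
  have hm : ∀ g ∈ [a, b, c], j g ∈ [j a, j b, j c] := fun g hg => List.mem_map_of_mem (f := j) hg
  obtain ⟨_, ⟨h, rfl⟩, e1, e2⟩ := hinv _ (hm g hg)
  refine ⟨h, hj (by simpa using e1), fun g' hg' => ?_⟩
  exact (e2 _ (hm g' hg')).imp (fun e => hj (by simpa using e)) fun e => hj (by simpa using e)

omit hj

/-- `x, y` generate a copy of `S₃`. -/
structure S3 (x y : G) : Prop where
  xx : x * x = 1
  yy : y * y = 1
  br : x * y * x = y * x * y
  ne : x * y ≠ 1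

/-- two pairs commute -/
structure Cm (x y x' y' : G) : Prop where
  xx : Commute x x'
  xy : Commute x y'
  yx : Commute y x'
  yy : Commute y y'

theorem Cm.symm {x y x' y' : G} (h : Cm x y x' y') : Cm x' y' x y := ⟨h.1.symm, h.3.symm, h.2.symm, h.4.symm⟩

theorem Cm.comm {x y x' y' : G} (h : Cm x y x' y') : Commute (x * y) (x' * y') :=
  (h.1.mul_right h.2).mul_left (h.3.mul_right h.4)

theorem Cm.conj {x y x' y' : G} (h : Cm x y x' y') : x * (x' * y') * x⁻¹ = x' * y' := by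
  rw [(h.1.mul_right h.2).eq, mul_inv_cancel_right]

theorem S3.cube {x y : G} (h : S3 x y) : (x * y) ^ 3 = 1 := by
  calc (x * y) ^ 3 = (x * y * x) * (y * x * y) := by simp only [pow_succ, pow_zero, one_mul, mul_assoc]
    _ = x * y * (x * x) * y * x := by rw [← h.br]; group
    _ = 1 := by rw [h.xx, mul_one, mul_assoc x, h.yy, mul_one, h.xx]

theorem S3.conj {x y : G} (h : S3 x y) : x * (x * y) * x⁻¹ = (x * y)⁻¹ := by
  rw [← mul_assoc, h.xx, one_mul, mul_inv_rev, inv_eq_of_mul_eq_one_right h.yy]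

theorem S3.dvd {x y : G} (h : S3 x y) {i : ℕ} {z : G} (hz : x * z * x⁻¹ = z) (e : (x * y) ^ i * z = 1) :
    3 ∣ i ∧ z = 1 := by
  have h1 : ((x * y) ^ i)⁻¹ * z = 1 := by
    have := congrArg (fun g => x * g * x⁻¹) e
    simp only [mul_one, mul_inv_cancel] at this
    rwa [show x * ((x * y) ^ i * z) * x⁻¹ = x * (x * y) ^ i * x⁻¹ * (x * z * x⁻¹) by group, hz, ← conj_pow, h.conj,
      inv_pow] at this
  have h2 : z = (x * y) ^ i := (inv_mul_eq_one.1 h1).symm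
  have h3 : (x * y) ^ (2 * i) = 1 := by rw [two_mul, pow_add]; exact h2 ▸ e
  have : Fact (Nat.Prime 3) := ⟨Nat.prime_three⟩
  have h4 := orderOf_eq_prime h.cube h.ne
  have h5 := orderOf_dvd_of_pow_eq_one h3
  rw [h4] at h5
  have h6 : 3 ∣ i := by omega
  refine ⟨h6, ?_⟩
  obtain ⟨k, rfl⟩ := h6
  rw [h2, pow_mul, h.cube, one_pow]

theorem S3.dvd' {x y : G} (h : S3 x y) {i : ℕ} (e : (x * y) ^ i = 1) : 3 ∣ i :=
  (h.dvd (z := 1) (by simp) (by rw [e, one_mul])).1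

include hj

theorem rk2_of_S3 {x y x' y' : G} (h : S3 x y) (h' : S3 x' y') (c : Cm x y x' y') (m : x * y ∈ j.range)
    (m' : x' * y' ∈ j.range) : Rk2 S :=
  rk2_of_two' j hj Nat.prime_three (by norm_num) m m' c.comm h.cube h'.cube fun _ _ e => by
    obtain ⟨h1, h2⟩ := h.dvd (by rw [← conj_pow, c.conj]) e
    exact ⟨h1, h'.dvd' h2⟩

theorem fat_of_S3 {x y x' y' x'' y'' : G} (h : S3 x y) (h' : S3 x' y') (h'' : S3 x'' y'') (c : Cm x y x' y')
    (c' : Cm x y x'' y'') (c'' : Cm x' y' x'' y'') (m : ∀ g ∈ [x, y, x', y', x'', y''], g ∈ j.range) : Fat S := by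
  simp only [List.forall_mem_cons, List.not_mem_nil, IsEmpty.forall_iff, implies_true, and_true] at m
  obtain ⟨m1, m2, m3, m4, m5, m6⟩ := m
  refine fat_of_three' j hj Nat.prime_three (by norm_num) (mul_mem m1 m2) (mul_mem m3 m4) (mul_mem m5 m6)
    c.comm c'.comm c''.comm h.cube h'.cube h''.cube (fun i k l e => ?_) ?_
  · obtain ⟨h1, h2⟩ := h.dvd (by
      rw [show ∀ u v : G, x * (u * v) * x⁻¹ = x * u * x⁻¹ * (x * v * x⁻¹) from fun u v => by group, ← conj_pow,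
        ← conj_pow, c.conj, c'.conj]) e
    obtain ⟨h3, h4⟩ := h'.dvd (by rw [← conj_pow, c''.conj]) h2
    exact ⟨h1, h3, h''.dvd' h4⟩
  · simp only [List.forall_mem_cons, List.not_mem_nil, IsEmpty.forall_iff, implies_true, and_true]
    exact ⟨⟨x, m1, h.conj, Or.inr h.conj, Or.inl c.conj, Or.inl c'.conj⟩,
      ⟨x', m3, h'.conj, Or.inl c.symm.conj, Or.inr h'.conj, Or.inl c''.conj⟩,
      ⟨x'', m5, h''.conj, Or.inl c'.symm.conj, Or.inl c''.symm.conj, Or.inr h''.conj⟩⟩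

end Cfsg.Agent.H78.QTE
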