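import Cfsg.Agent.H78.T6
import Cfsg.Agent.H45.SrgCount
import Cfsg.Prelude.Def_Sporadic_a

/-! The cocliques of a strongly regular graph with parameters `(77, 16, 0, 4)`. -/

set_option autoImplicit false
set_option linter.unusedSectionVars false

namespace Cfsg.Agent.H78.S77
open Finset H45 T6

variable {V : Type*} [Fintype V] [DecidableEq V] (G : SimpleGraph V) [DecidableRel G.Adj]

/-- The adjacency matrix. -/
def a (v y : V) : ℤ := if G.Adj v y then 1 else 0

/-- The identity matrix. -/
def δ (v y : V) : ℤ := if v = y then 1 else 0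

/-- The Gram matrix. -/
def W (v y : V) : ℤ := 2 * δ v y - a G v y + 1

/-- Eigenfunctions up to a constant. -/
def Hm (f : V → ℤ) (κ : ℤ) : Prop := ∀ v, ∑ y, W G v y * f y = 8 * f v + κ

/-- The function attached to two non-adjacent vertices. -/
def F (x z y : V) : ℤ := 2 * W G x y + 2 * W G z y + ∑ c, a G x c * a G z c * W G c y - 6

/-- The indicator function. -/
def ind (C : Finset V) (y : V) : ℤ := if y ∈ C then 1 else 0

/-- Cocliques of the largest size. -/
def Hf (C : Finset V) : Prop := ∀ v, ∑ y, a G v y * ind C y = 6 - 6 * ind C v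

/-- The vertices at distance two. -/
abbrev T (x : V) := {z // z ≠ x ∧ ¬ G.Adj x z}

variable {G}

theorem a_symm (v w : V) : a G v w = a G w v := by simp only [a, G.adj_comm]
theorem δ_symm (v w : V) : δ v w = δ w v := by simp only [δ, eq_comm]
theorem W_symm (v w : V) : W G v w = W G w v := by rw [W, W, a_symm, δ_symm]
theorem sδ (v : V) (f : V → ℤ) : ∑ y, δ v y * f y = f v := by simp [δ]

theorem split (x : V) (f : V → ℤ) : ∑ y, f y = f x + ∑ c, a G x c * f c + ∑ z : T G x, f z := by
  rw [← sδ x f, ← sum_add_distrib, ← sum_subtype (univ.filter fun z => z ≠ x ∧ ¬ G.Adj x z) (by simp),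
    sum_filter, ← sum_add_distrib]
  refine sum_congr rfl fun y _ => ?_
  by_cases h1 : x = y
  · subst h1; simp [δ, a]
  by_cases h2 : G.Adj x y <;> simp [δ, a, h1, h2, Ne.symm h1]

theorem split0 {x : V} {f : V → ℤ} (h : ∀ c, G.Adj x c → f c = 0) :
    ∑ y, f y = f x + ∑ z : T G x, f z := by
  rw [split (G := G) x, sum_eq_zero (s := univ) (f := fun c => a G x c * f c) fun c _ => by
    by_cases k : G.Adj x c <;> simp [a, k, h c], add_zero]

variable (h : G.IsSRGWith 77 16 0 4)
include h

theorem sa (v : V) : ∑ y, a G v y = 16 := by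
  have := card_nb h v
  simp only [a, sum_boole]
  exact_mod_cast this

theorem saa (v w : V) : ∑ y, a G v y * a G w y = 12 * δ v w - 4 * a G v w + 4 := by
  have e : ∑ y, a G v y * a G w y = (nb G v ∩ nb G w).card := by
    rw [card_inter_nb, nb, sum_filter]
    exact sum_congr rfl fun y _ => by simp only [a]; split_ifs <;> simp
  rw [e]
  by_cases h1 : v = w
  · subst h1; simp [card_nb h, δ, a]
  by_cases h2 : G.Adj v w
  · simp [card_cn_adj h h2, δ, a, h1, h2]
  · simp [card_cn_nadj h h1 h2, δ, a, h1, h2]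

theorem sW' (v : V) (f : V → ℤ) : ∑ y, W G v y * f y = 2 * f v - ∑ y, a G v y * f y + ∑ y, f y := by
  simp only [W, add_mul, sub_mul, mul_assoc, sum_add_distrib, sum_sub_distrib, ← mul_sum, sδ, one_mul]

theorem sW (v : V) : ∑ y, W G v y = 63 := by
  have := sW' h v fun _ => 1
  simpa [sa h, h.card] using this

theorem hm_W (w : V) : Hm G (W G w) 45 := fun v => by
  have e : ∀ y, a G v y * W G w y = 2 * (δ w y * a G v y) - a G v y * a G w y + a G v y := fun y => by
    rw [W]; ring
  rw [sW' h, sW h]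
  simp only [e, sum_add_distrib, sum_sub_distrib, ← mul_sum, sδ, sa h, saa h]
  simp only [W, δ_symm w v, a_symm w v]
  ring

section
variable {x z : V} (h1 : z ≠ x) (h2 : ¬ G.Adj x z)
include h1 h2

theorem s4 : ∑ c, a G x c * a G z c = 4 := by rw [saa h]; simp [δ, a, h1.symm, h2]

theorem pair {f : V → ℤ} {κ : ℤ} (hf : Hm G f κ) : ∑ y, F G x z y * f y =
    16 * f x + 16 * f z + 8 * ∑ c, a G x c * a G z c * f c + 8 * κ - 6 * ∑ y, f y := by
  have e : ∑ y, (∑ c, a G x c * a G z c * W G c y) * f y = 8 * ∑ c, a G x c * a G z c * f c + 4 * κ := by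
    simp only [sum_mul]
    rw [sum_comm, ← s4 h h1 h2, mul_sum, sum_mul, ← sum_add_distrib]
    refine sum_congr rfl fun c _ => ?_
    simp only [mul_assoc, ← mul_sum, hf c]
    ring
  simp only [F, add_mul, sub_mul, mul_assoc (2 : ℤ), sum_add_distrib, sum_sub_distrib, ← mul_sum, e, hf x, hf z]
  ring

theorem hm_F : Hm G (F G x z) 30 := fun v => by
  simp only [mul_comm (W G v _), pair h h1 h2 (hm_W h v), sW h]
  simp only [F, W_symm v]
  ring

theorem sF : ∑ y, F G x z y = 42 := by
  have := pair h h1 h2 (f := fun _ => 1) (κ := 55) fun v => by simp [sW h]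
  simpa [s4 h h1 h2, h.card] using this

theorem F_x : F G x z x = 2 := by
  rw [F, sum_eq_zero fun c _ => by
    by_cases k : G.Adj x c <;> simp [a, W, δ, k, G.adj_comm c, fun k : G.Adj x c => k.ne']]
  simp [W, δ, a, h1, G.adj_comm z, h2]

theorem F_n {y : V} (hy : G.Adj x y) : F G x z y = 0 := by
  have e : ∀ c, a G x c * a G z c * W G c y = 2 * (δ y c * (a G x c * a G z c)) + a G x c * a G z c :=
    fun c => by
      by_cases k : G.Adj x c
      · simp only [W, a, k, not_adj_of_adj h k hy, δ_symm y, if_true, if_false]; ring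
      · simp [a, k]
  have : z ≠ y := fun e => h2 (e ▸ hy)
  simp only [F, e, sum_add_distrib, ← mul_sum, sδ, s4 h h1 h2]
  simp only [W, δ, a, hy, hy.ne, this, if_true, if_false]
  ring

theorem F_t {y : V} (k1 : y ≠ x) (k2 : ¬ G.Adj x y) :
    F G x z y = 2 * W G z y - ∑ c, a G x c * a G z c * a G y c := by
  have e : ∀ c, a G x c * a G z c * W G c y = 2 * (δ y c * (a G x c * a G z c)) -
      a G x c * a G z c * a G y c + a G x c * a G z c := fun c => by
    rw [W, δ_symm y, a_symm y]; ring
  simp only [F, e, sum_add_distrib, sum_sub_distrib, ← mul_sum, sδ, s4 h h1 h2]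
  simp only [W, δ, a, k1.symm, k2, if_false]
  ring

end

theorem Hf.sum {C : Finset V} (hC : Hf G C) : ∑ y, ind C y = 21 := by
  have := sum_congr rfl fun v (_ : v ∈ univ) => hC v
  rw [sum_comm] at this
  simp only [← sum_mul, a_symm _ _, sa h, sum_sub_distrib, ← mul_sum, sum_const, card_univ, h.card,
    nsmul_eq_mul] at this
  omega

theorem Hf.hm {C : Finset V} (hC : Hf G C) : Hm G (ind C) 15 := fun v => by
  rw [sW' h, hC, hC.sum h]; ring

omit h in
theorem Hf.co {C : Finset V} (hC : Hf G C) {x c : V} (hx : x ∈ C) (hc : G.Adj x c) : ind C c = 0 := by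
  have e := hC x
  rw [show ind C x = 1 from if_pos hx] at e
  have := (sum_eq_zero_iff_of_nonneg fun y _ => by
    simp only [a, ind]; split_ifs <;> norm_num).1 e c (mem_univ c)
  simpa [a, hc] using this

open Classical in
theorem two {x : V} (z : T G x) : (univ.filter fun C => Hf G C ∧ x ∈ C ∧ z.1 ∈ C).card = 2 := by
  have z0 : ∀ {f : V → ℤ} (z : T G x), (∀ c, G.Adj x c → f c = 0) →
      ∑ c, a G x c * a G z c * f c = 0 := fun z hf => sum_eq_zero fun c _ => by
    by_cases k : G.Adj x c <;> simp [a, k, hf c]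
  obtain ⟨g, _, _, H, e1, e2⟩ := exists_quot (τ := T G x) (g := fun a b => F G x a b)
    (fun u v => by
      rw [F_t h u.2.1 u.2.2 v.2.1 v.2.2, F_t h v.2.1 v.2.2 u.2.1 u.2.2, W_symm]
      simp only [mul_right_comm])
    (fun u => by
      have e : ∀ c, a G x c * a G u c * a G u c = a G x c * a G u c := fun c => by
        simp only [a]; split_ifs <;> simp
      simp only [F_t h u.2.1 u.2.2 u.2.1 u.2.2, e, s4 h u.2.1 u.2.2]
      simp [W, δ, a])
    (fun u v => by
      by_cases k : u = v
      · subst k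
        have e : ∀ c, a G x c * a G u c * a G u c = a G x c * a G u c := fun c => by
          simp only [a]; split_ifs <;> simp
        simp only [F_t h u.2.1 u.2.2 u.2.1 u.2.2, e, s4 h u.2.1 u.2.2]
        simp [W, δ, a]
      · have : 0 ≤ ∑ c, a G x c * a G u c * a G v c := sum_nonneg fun c _ => by
          simp only [a]; split_ifs <;> simp
        rw [F_t h u.2.1 u.2.2 v.2.1 v.2.2, W, δ, if_neg (Subtype.val_injective.ne k), a]
        split_ifs <;> omega)
    (by
      have := split (G := G) x fun _ => 1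
      simp only [mul_one, sa h, sum_const, card_univ, h.card, nsmul_eq_mul] at this
      omega)
    (fun u => by
      have := split0 fun c => F_n h u.2.1 u.2.2 (y := c)
      rw [sF h u.2.1 u.2.2, F_x h u.2.1 u.2.2] at this
      omega)
    (fun u v => by
      have := split0 (f := fun y => F G x v y * F G x u y) fun c hc => by rw [F_n h u.2.1 u.2.2 hc, mul_zero]
      rw [pair h v.2.1 v.2.2 (hm_F h u.2.1 u.2.2), sF h u.2.1 u.2.2, F_x h u.2.1 u.2.2, F_x h v.2.1 v.2.2,
        z0 v fun c => F_n h u.2.1 u.2.2] at this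
      simp only [mul_comm (F G x u _)]
      omega)
  set cl := Set.rangeFactorization fun a b : T G x => F G x a b
  have sj : Function.Surjective cl := Set.rangeFactorization_surjective
  let L : Finset _ → Finset V := fun K => univ.filter fun y => y = x ∨ ∃ k, cl ⟨y, k⟩ ∈ K
  have L1 : ∀ K, x ∈ L K := fun K => mem_filter.2 ⟨mem_univ _, Or.inl rfl⟩
  have L2 : ∀ K (y : T G x), y.1 ∈ L K ↔ cl y ∈ K := fun K y => by
    simp only [L, mem_filter, mem_univ, true_and, y.2.1, false_or]
    exact ⟨fun ⟨_, k⟩ => k, fun k => ⟨y.2, k⟩⟩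
  have L3 : ∀ K c, G.Adj x c → c ∉ L K := fun K c hc k => by
    rcases (mem_filter.1 k).2 with k | ⟨k, -⟩
    exacts [hc.ne' k, k.2 hc]
  have L4 : ∀ K (φ : _ → ℤ), ∑ y : T G x, ind (L K) y * φ (cl y) = 4 * ∑ r ∈ K, φ r := fun K φ => by
    simp only [ind, L2]
    rw [e2 fun r => (if r ∈ K then 1 else 0) * φ r]
    simp
  have L5 : ∀ K, Cl g K → Hf G (L K) := fun K k v => by
    have s20 := L4 K fun _ => 1
    simp only [mul_one, sum_const, k.1] at s20
    have f1 : ∀ y, 16 * ind (L K) y = ∑ u : T G x, ind (L K) u * F G x u y - 8 * W G x y := fun y => by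
      by_cases c1 : y = x
      · subst c1
        simp only [fun u : T G y => F_x h u.2.1 u.2.2, ← sum_mul, s20]
        simp [ind, L1, W, δ, a]
      by_cases c2 : G.Adj x y
      · simp [fun u : T G x => F_n h u.2.1 u.2.2 c2, ind, L3 K y c2, W, δ, a, c2, c2.ne]
      · have := L4 K fun r => g r (cl ⟨y, c1, c2⟩)
        simp only [e1, H.star k] at this
        rw [this, ind, W, δ, a, if_neg c2, if_neg (Ne.symm c1)]
        simp only [L2 K ⟨y, c1, c2⟩]
        split_ifs <;> rfl
    have f2 : 16 * ∑ y, W G v y * ind (L K) y = 8 * (16 * ind (L K) v) + 240 := by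
      have e : ∀ y, 16 * (W G v y * ind (L K) y) =
          ∑ u : T G x, ind (L K) u * (W G v y * F G x u y) - 8 * (W G v y * W G x y) := fun y => by
        rw [mul_left_comm, f1, mul_sub, mul_sum]
        simp only [mul_left_comm]
      rw [mul_sum, sum_congr rfl fun y _ => e y, sum_sub_distrib, sum_comm]
      simp only [← mul_sum, fun u : T G x => hm_F h u.2.1 u.2.2 v, hm_W h x v, mul_add, sum_add_distrib,
        ← sum_mul, s20, mul_left_comm _ (8 : ℤ)]
      rw [f1]
      simp
      ring
    have f3 := split0 (G := G) (x := x) (f := ind (L K)) fun c hc => if_neg (L3 K c hc)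
    rw [sW' h, f3, s20, show ind (L K) x = 1 from if_pos (L1 K)] at f2
    simp only [smul_eq_mul, nsmul_eq_mul] at f2
    omega
  have L6 : ∀ C, Hf G C → x ∈ C → ∃ K, Cl g K ∧ C = L K := fun C hC hx => by
    have c1 : ∀ u : T G x, ∑ y : T G x, F G x u y * ind C y = 8 + 16 * ind C u := fun u => by
      have := split0 (f := fun y => F G x u y * ind C y) fun c hc => by rw [hC.co hx hc, mul_zero]
      rw [pair h u.2.1 u.2.2 (hC.hm h), hC.sum h, F_x h u.2.1 u.2.2, z0 u fun c => hC.co hx,
        show ind C x = 1 from if_pos hx] at this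
      omega
    have c2 : C = L (univ.filter fun r => ∃ u, cl u = r ∧ u.1 ∈ C) := by
      ext y
      by_cases k1 : y = x
      · simp [k1, hx, L1]
      by_cases k2 : G.Adj x y
      · refine iff_of_false (fun k => ?_) (L3 _ y k2)
        have := hC.co hx k2
        rw [ind, if_pos k] at this
        omega
      rw [L2 _ ⟨y, k1, k2⟩, mem_filter]
      refine ⟨fun k => ⟨mem_univ _, _, rfl, k⟩, fun ⟨_, u, u1, u2⟩ => ?_⟩
      have u3 := c1 u
      have u4 : ∀ w : T G x, F G x u w = F G x y w := congrFun (congrArg Subtype.val u1)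
      simp only [u4] at u3
      rw [c1 ⟨y, k1, k2⟩, show ind C u = 1 from if_pos u2, ind] at u3
      by_contra k
      rw [if_neg k] at u3
      omega
    generalize (univ.filter fun r => ∃ u, cl u = r ∧ u.1 ∈ C) = K at c2
    subst c2
    have c3 := split0 (G := G) (x := x) (f := ind (L K)) fun c hc => if_neg (L3 K c hc)
    have c4 := L4 K fun _ => 1
    simp only [mul_one, sum_const, nsmul_eq_mul] at c4
    rw [hC.sum h, c4, show ind (L K) x = 1 from if_pos hx] at c3
    have c5 : K.card = 5 := by omega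
    refine ⟨K, ⟨c5, sj.forall.2 fun u hu s hs k => ?_⟩, rfl⟩
    have c6 := L4 K (g (cl u))
    simp only [e1, mul_comm (ind _ _), c1, show ind (L K) u = 1 from if_pos ((L2 K u).2 hu)] at c6
    rw [← add_sum_erase _ _ hu, H.diag] at c6
    refine (sum_eq_sum_iff_of_le (s := K.erase (cl u)) (f := g (cl u)) (g := fun _ => 1) fun r hr => by
      have := H.off _ r (mem_erase.1 hr).1.symm
      omega).1 ?_ s (mem_erase.2 ⟨k.symm, hs⟩)
    rw [sum_const, card_erase_of_mem hu, c5]
    simp only [nsmul_eq_mul]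
    omega
  obtain ⟨K, M, k1, k2, k3, k4, k5, k6⟩ := H.two (cl z)
  refine card_eq_two.2 ⟨L K, L M, fun e => k1 (Finset.ext (sj.forall.2 fun y => by rw [← L2, ← L2, e])), ?_⟩
  ext C
  simp only [mem_filter, mem_univ, true_and, mem_insert, mem_singleton]
  refine ⟨fun ⟨c1, c2, c3⟩ => ?_, ?_⟩
  · obtain ⟨N, n1, rfl⟩ := L6 C c1 c2
    exact (k6 N n1 ((L2 N z).1 c3)).imp (congrArg L) (congrArg L)
  · rintro (rfl | rfl)
    exacts [⟨L5 K k2, L1 K, (L2 K z).2 k4⟩, ⟨L5 M k3, L1 M, (L2 M z).2 k5⟩]

theorem exists_design : ∃ (P : Finset (Finset V)) (b : V → Finset P), Fintype.card P = 22 ∧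
    IsSteinerSystem 3 6 (Set.range b) ∧ Function.Injective b ∧
    ∀ x y, G.Adj x y ↔ Disjoint (b x) (b y) := by
  classical
  let P : Finset (Finset V) := univ.filter (Hf G)
  have hP : ∀ C : P, Hf G C := fun C => (mem_filter.1 C.2).2
  let b : V → Finset P := fun x => univ.filter fun C => x ∈ C.1
  have mb : ∀ x C, C ∈ b x ↔ x ∈ C.1 := fun x C => by simp [b]
  have b2 : ∀ x y, y ≠ x → ¬ G.Adj x y → (b x ∩ b y).card = 2 := fun x y h1 h2 => by
    rw [← two h ⟨y, h1, h2⟩, ← card_map (Function.Embedding.subtype _)]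
    congr 1
    ext C
    simp [mb, P, and_assoc]
    tauto
  have b0 : ∀ x y, G.Adj x y → Disjoint (b x) (b y) := fun x y k => disjoint_left.2 fun C c1 c2 => by
    have := (hP C).co ((mb _ _).1 c1) k
    rw [ind, if_pos ((mb _ _).1 c2)] at this
    omega
  have b6 : ∀ x, (b x).card = 6 := fun x => by
    have e1 : ∑ C ∈ b x, ∑ z : T G x, ind C.1 z = 20 * (b x).card := by
      rw [sum_congr rfl (g := fun _ => 20) fun C hC => by
        have := split0 (G := G) (f := ind C.1) fun c => (hP C).co ((mb _ _).1 hC)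
        rw [(hP C).sum h, show ind C.1 x = 1 from if_pos ((mb _ _).1 hC)] at this
        omega]
      simp [mul_comm]
    have e2 : ∀ z : T G x, ∑ C ∈ b x, ind C.1 z = 2 := fun z => by
      simp only [ind, ← mb, sum_boole, filter_mem_eq_inter, b2 x z z.2.1 z.2.2]
      rfl
    have e3 := split (G := G) x fun _ => 1
    rw [sum_comm] at e1
    simp only [e2, mul_one, sa h, sum_const, card_univ, h.card, nsmul_eq_mul] at e1 e3
    omega
  have p22 : Fintype.card P = 22 := by
    have e1 : ∑ C : P, ∑ x, ind C.1 x = 21 * Fintype.card P := by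
      simp [fun C => (hP C).sum h, mul_comm]
    have e2 : ∀ x, ∑ C : P, ind C.1 x = 6 := fun x => by
      simp only [ind, sum_boole]
      exact_mod_cast b6 x
    rw [sum_comm] at e1
    simp only [e2, sum_const, card_univ, h.card, nsmul_eq_mul] at e1
    omega
  have b3 : ∀ x y (s : Finset P), s.card = 3 → s ⊆ b x → s ⊆ b y → x = y := fun x y s s1 s2 s3 => by
    by_contra k
    have := card_le_card (subset_inter s2 s3)
    by_cases k1 : G.Adj x y
    · rw [disjoint_iff_inter_eq_empty.1 (b0 x y k1), card_empty] at this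
      omega
    · rw [b2 x y (Ne.symm k) k1] at this
      omega
  have b4 : univ.biUnion (fun x => powersetCard 3 (b x)) = powersetCard 3 univ :=
    eq_of_subset_of_card_le (biUnion_subset.2 fun x _ => powersetCard_mono (subset_univ _)) (by
      rw [card_biUnion fun x _ y _ k => disjoint_left.2 fun s s1 s2 => k (b3 x y s (mem_powersetCard.1 s1).2
        (mem_powersetCard.1 s1).1 (mem_powersetCard.1 s2).1)]
      simp only [card_powersetCard, b6, card_univ, p22, sum_const, h.card]
      decide)
  refine ⟨P, b, p22, ⟨by rintro _ ⟨x, rfl⟩; exact b6 x, fun s hs => ?_⟩, fun x y e => ?_,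
    fun x y => ⟨b0 x y, fun k => ?_⟩⟩
  · have : s ∈ powersetCard 3 univ := mem_powersetCard.2 ⟨subset_univ _, hs⟩
    rw [← b4, mem_biUnion] at this
    obtain ⟨x, -, hx⟩ := this
    refine ⟨b x, ⟨⟨x, rfl⟩, (mem_powersetCard.1 hx).1⟩, ?_⟩
    rintro _ ⟨⟨y, rfl⟩, hy⟩
    rw [b3 x y s hs (mem_powersetCard.1 hx).1 hy]
  · obtain ⟨s, s1, s2⟩ := exists_subset_card_eq (show 3 ≤ (b x).card by rw [b6]; norm_num)
    exact b3 x y s s2 s1 (e ▸ s1)
  · by_contra k1
    rw [disjoint_iff_inter_eq_empty, ← card_eq_zero] at k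
    by_cases k2 : y = x
    · rw [k2, inter_self, b6] at k
      omega
    · rw [b2 x y k2 k1] at k
      omega

end Cfsg.Agent.H78.S77
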