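import Mathlib

/-! The five-cliques of a strongly regular graph with parameters `(15, 8, 4, 4)`. -/

set_option autoImplicit false
set_option linter.unusedSectionVars false
set_option linter.dupNamespace false

namespace Cfsg.Agent.H78.T6
open Finset

variable {X : Type*} [Fintype X] [DecidableEq X]

/-- The matrix `2 I + A` of the graph. -/
structure T6 (h : X → X → ℤ) : Prop where
  symm : ∀ a b, h a b = h b a
  diag : ∀ a, h a a = 2
  off : ∀ a b, a ≠ b → h a b = 0 ∨ h a b = 1
  card : Fintype.card X = 15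
  sum1 : ∀ a, ∑ c, h a c = 10
  sum2 : ∀ a b, ∑ c, h a c * h b c = 4 * h a b + 4

/-- A clique with five vertices. -/
def Cl (h : X → X → ℤ) (K : Finset X) : Prop := K.card = 5 ∧ ∀ a ∈ K, ∀ b ∈ K, a ≠ b → h a b = 1

theorem zero_of_sq {u : X → ℤ} (h : ∑ c, u c ^ 2 = 0) (c : X) : u c = 0 :=
  pow_eq_zero_iff two_ne_zero |>.1 ((sum_eq_zero_iff_of_nonneg fun _ _ => sq_nonneg _).1 h c (mem_univ c))

variable {h : X → X → ℤ}

namespace T6
variable (H : T6 h)
include H

theorem eq_row {u : X → ℤ} (h2 : ∀ y, ∑ c, h y c * u c = 4 * u y + 4) (h3 : ∑ c, u c * u c = 12) {y : X}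
    (hy : u y = 2) (c : X) : h y c = u c := by
  refine sub_eq_zero.1 (zero_of_sq (u := fun c => h y c - u c) ?_ c)
  have : ∀ c, (h y c - u c) ^ 2 = h y c * h y c - 2 * (h y c * u c) + u c * u c := fun c => by ring
  simp only [this, sum_add_distrib, sum_sub_distrib, ← mul_sum, H.sum2, h2, h3, H.diag, hy]
  norm_num

theorem row {u : X → ℤ} (h1 : ∑ c, u c = 10) (h2 : ∀ y, ∑ c, h y c * u c = 4 * u y + 4)
    (h3 : ∑ c, u c * u c = 12) : ∃ y, ∀ c, h y c = u c := by
  by_contra k
  have k1 : ∀ y, u y * u y = u y := fun y => by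
    have a1 : 0 ≤ ∑ c, (h y c - u c) ^ 2 := sum_nonneg fun _ _ => sq_nonneg _
    have a2 : 0 ≤ ∑ c, (3 * (h y c + u c) - 4) ^ 2 := sum_nonneg fun _ _ => sq_nonneg _
    have e1 : ∀ c, (h y c - u c) ^ 2 = h y c * h y c - 2 * (h y c * u c) + u c * u c := fun c => by ring
    have e2 : ∀ c, (3 * (h y c + u c) - 4) ^ 2 = 9 * (h y c * h y c) + 18 * (h y c * u c) +
      9 * (u c * u c) - 24 * h y c - 24 * u c + 16 := fun c => by ring
    simp only [e1, e2, sum_add_distrib, sum_sub_distrib, ← mul_sum, H.sum1, H.sum2, h1, h2, h3, H.diag,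
      sum_const, card_univ, H.card, nsmul_eq_mul] at a1 a2
    have a3 : u y ≠ 2 := fun e => k ⟨y, H.eq_row h2 h3 e⟩
    have a4 : u y = 0 ∨ u y = 1 := by push_cast at a2; omega
    rcases a4 with e | e <;> simp [e]
  simp only [k1] at h3
  omega

theorem line {a b : X} (hab : h a b = 0) : ∃ y, ∀ c, h y c = 2 - h a c - h b c := by
  have h2 : ∀ y, ∑ c, h y c * (2 - h a c - h b c) = 4 * (2 - h a y - h b y) + 4 := fun y => by
    simp only [mul_sub, sum_sub_distrib, ← sum_mul, H.sum1, H.sum2]
    simp only [H.symm y]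
    ring
  have h1 : ∑ c, (2 - h a c - h b c) = 10 := by
    simp [sum_sub_distrib, H.sum1, H.card]
  refine H.row h1 h2 ?_
  simp only [sub_mul _ _ (_ - _ - _), sum_sub_distrib, ← mul_sum, h1, h2, H.diag, hab, H.symm b a]
  norm_num

theorem inj {a b : X} (e : h a b = 2) : a = b := by
  by_contra k
  have := H.off a b k
  omega

theorem edge {a b : X} (hab : h a b = 1) : ∃ u K, Cl h K ∧ a ∈ K ∧ b ∈ K ∧ h a u = 1 ∧ u ∉ K ∧
    ∀ K', Cl h K' → a ∈ K' → b ∈ K' → K' = K := by
  have hba : h b a = 1 := H.symm a b ▸ hab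
  have d := H.diag
  have n3 : (univ.filter fun c => h a c = 0 ∧ h b c = 0).card = 3 := by
    have e : ∀ c, (if h a c = 0 ∧ h b c = 0 then 1 else 0 : ℤ) = 1 - h a c - h b c + h a c * h b c :=
      fun c => by
        by_cases c1 : a = c
        · subst c1; simp [d, hba]
        by_cases c2 : b = c
        · subst c2; simp [d, hab]
        rcases H.off a c c1 with e1 | e1 <;> rcases H.off b c c2 with e2 | e2 <;> simp [e1, e2]
    have := sum_congr rfl fun c (_ : c ∈ univ) => e c
    simp only [sum_boole, sum_add_distrib, sum_sub_distrib, H.sum1, H.sum2, hab, sum_const, card_univ,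
      H.card, nsmul_eq_mul] at this
    omega
  have n4 : (univ.filter fun c => h a c = 1 ∧ h b c = 1).card = 4 := by
    have e : ∀ c, (if h a c = 1 ∧ h b c = 1 then 1 else 0 : ℤ) = h a c * h b c -
        (if a = c then 2 else 0) - (if b = c then 2 else 0) := fun c => by
      by_cases c1 : a = c
      · subst c1
        have : b ≠ a := fun e => by rw [e, d] at hba; omega
        simp [d, hba, this]
      by_cases c2 : b = c
      · subst c2; simp [d, hab, c1]
      rcases H.off a c c1 with e1 | e1 <;> rcases H.off b c c2 with e2 | e2 <;> simp [e1, e2, c1, c2]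
    have := sum_congr rfl fun c (_ : c ∈ univ) => e c
    simp only [sum_boole, sum_sub_distrib, H.sum2, hab, sum_ite_eq, mem_univ, if_true] at this
    omega
  obtain ⟨r, s, t, rs, rt, st, e3⟩ := card_eq_three.1 n3
  have m : ∀ c, c ∈ ({r, s, t} : Finset X) → h a c = 0 ∧ h b c = 0 := fun c hc => by
    rw [← e3] at hc; exact (mem_filter.1 hc).2
  have p : ∀ c c', c ≠ c' → h a c = 0 ∧ h b c = 0 → h a c' = 0 ∧ h b c' = 0 → h c c' = 1 :=
    fun c c' hc k k' => (H.off c c' hc).resolve_left fun e => by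
      obtain ⟨y, hy⟩ := H.line e
      have k1 := hy a
      have k2 := hy b
      rw [H.symm c, H.symm c', k.1, k'.1] at k1
      rw [H.symm c, H.symm c', k.2, k'.2, H.inj k1] at k2
      omega
  obtain ⟨ar, br⟩ := m r (by simp)
  obtain ⟨as, bs⟩ := m s (by simp)
  obtain ⟨at', bt⟩ := m t (by simp)
  have hrs := p r s rs ⟨ar, br⟩ ⟨as, bs⟩
  have hrt := p r t rt ⟨ar, br⟩ ⟨at', bt⟩
  have hst := p s t st ⟨as, bs⟩ ⟨at', bt⟩
  have h2 : ∀ y, ∑ c, h y c * (4 - h a c - h b c - h r c - h s c - h t c) =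
      4 * (4 - h a y - h b y - h r y - h s y - h t y) + 4 := fun y => by
    simp only [mul_sub, sum_sub_distrib, ← sum_mul, H.sum1, H.sum2]
    simp only [H.symm y]
    ring
  have h1 : ∑ c, (4 - h a c - h b c - h r c - h s c - h t c) = 10 := by
    simp [sum_sub_distrib, H.sum1, H.card]
  obtain ⟨u, hu⟩ := H.row h1 h2 (by
    simp only [sub_mul _ _ (_ - _ - _ - _ - _ - _), sum_sub_distrib, ← mul_sum, h1, h2, H.diag, hab, hba,
      H.symm r a, H.symm s a, H.symm t a, H.symm r b, H.symm s b, H.symm t b, H.symm s r, H.symm t r,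
      H.symm t s, ar, as, at', br, bs, bt, hrs, hrt, hst]
    norm_num)
  have ua : h u a = 1 := by rw [hu, d, hba, H.symm r, H.symm s, H.symm t, ar, as, at']; rfl
  have ub : h u b = 1 := by rw [hu, d, hab, H.symm r, H.symm s, H.symm t, br, bs, bt]; rfl
  have ur : h u r = 0 := by rw [hu, d, ar, br, H.symm s, H.symm t, hrs, hrt]; rfl
  have us : h u s = 0 := by rw [hu, d, as, bs, H.symm t, hrs, hst]; rfl
  have ut : h u t = 0 := by rw [hu, d, at', bt, hrt, hst]; rfl
  obtain ⟨x, hx⟩ := H.line ur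
  obtain ⟨y, hy⟩ := H.line us
  obtain ⟨z, hz⟩ := H.line ut
  have xa : h x a = 1 := by rw [hx, ua, H.symm, ar]; rfl
  have xb : h x b = 1 := by rw [hx, ub, H.symm, br]; rfl
  have xu : h x u = 0 := by rw [hx, d, H.symm, ur]; rfl
  have ya : h y a = 1 := by rw [hy, ua, H.symm, as]; rfl
  have yb : h y b = 1 := by rw [hy, ub, H.symm, bs]; rfl
  have yu : h y u = 0 := by rw [hy, d, H.symm, us]; rfl
  have za : h z a = 1 := by rw [hz, ua, H.symm, at']; rfl
  have zb : h z b = 1 := by rw [hz, ub, H.symm, bt]; rfl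
  have zu : h z u = 0 := by rw [hz, d, H.symm, ut]; rfl
  have xy : h x y = 1 := by rw [hx, H.symm u, yu, H.symm r, hy, ur, H.symm, hrs]; rfl
  have xz : h x z = 1 := by rw [hx, H.symm u, zu, H.symm r, hz, ur, H.symm, hrt]; rfl
  have yz : h y z = 1 := by rw [hy, H.symm u, zu, H.symm s, hz, us, H.symm, hst]; rfl
  have ne : ∀ {c c' : X}, h c c' = 0 ∨ h c c' = 1 → c ≠ c' := fun k e => by rw [e, d] at k; omega
  have n1 := ne (Or.inr hab); have n2 := ne (Or.inr xa); have n5 := ne (Or.inr xb)
  have n6 := ne (Or.inr ya); have n7 := ne (Or.inr yb); have n8 := ne (Or.inr za)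
  have n9 := ne (Or.inr zb); have n10 := ne (Or.inr xy); have n11 := ne (Or.inr xz)
  have n12 := ne (Or.inr yz); have n13 := ne (Or.inr ua); have n14 := ne (Or.inr ub)
  have n15 := ne (Or.inl xu); have n16 := ne (Or.inl yu); have n17 := ne (Or.inl zu)
  have c5 : ({a, b, x, y, z} : Finset X).card = 5 := by
    rw [card_insert_of_notMem (by simp [n1, n2.symm, n6.symm, n8.symm]),
      card_insert_of_notMem (by simp [n5.symm, n7.symm, n9.symm]),
      card_insert_of_notMem (by simp [n10, n11]), card_pair n12]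
  have e4 : ({u, x, y, z} : Finset X) = univ.filter fun c => h a c = 1 ∧ h b c = 1 := by
    refine eq_of_subset_of_card_le (fun c hc => ?_) (by
      rw [n4, card_insert_of_notMem (by simp [n15.symm, n16.symm, n17.symm]),
        card_insert_of_notMem (by simp [n10, n11]), card_pair n12])
    simp only [mem_insert, mem_singleton] at hc
    rw [mem_filter, H.symm a, H.symm b]
    rcases hc with rfl | rfl | rfl | rfl <;> exact ⟨mem_univ _, by assumption, by assumption⟩
  refine ⟨u, {a, b, x, y, z}, ⟨c5, fun c hc c' hc' k => ?_⟩, by simp, by simp, H.symm u a ▸ ua,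
    by simp [n13, n14, n15.symm, n16.symm, n17.symm], fun K ⟨k1, k2⟩ ka kb => ?_⟩
  · simp only [mem_insert, mem_singleton] at hc hc'
    rcases hc with rfl | rfl | rfl | rfl | rfl <;> rcases hc' with rfl | rfl | rfl | rfl | rfl <;>
      first | exact absurd rfl k | assumption | (rw [H.symm]; assumption)
  · have k3 : ∀ c ∈ K, c = a ∨ c = b ∨ c ∈ ({u, x, y, z} : Finset X) := fun c hc => by
      by_cases c1 : c = a
      · exact Or.inl c1
      by_cases c2 : c = b
      · exact Or.inr (Or.inl c2)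
      rw [e4, mem_filter]
      exact Or.inr (Or.inr ⟨mem_univ _, k2 a ka c hc (Ne.symm c1), k2 b kb c hc (Ne.symm c2)⟩)
    by_cases ku : u ∈ K
    · have : K ⊆ {a, b, u} := fun c hc => by
        have k4 := k2 c hc u ku
        have k5 := k3 c hc
        simp only [mem_insert, mem_singleton] at k5 ⊢
        rcases k5 with rfl | rfl | rfl | rfl | rfl | rfl
        exacts [Or.inl rfl, Or.inr (Or.inl rfl), Or.inr (Or.inr rfl), by have := k4 n15; omega,
          by have := k4 n16; omega, by have := k4 n17; omega]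
      have := (card_le_card this).trans card_le_three
      omega
    · refine eq_of_subset_of_card_le (fun c hc => ?_) (by omega)
      have k5 := k3 c hc
      simp only [mem_insert, mem_singleton] at k5 ⊢
      rcases k5 with rfl | rfl | rfl | k5
      exacts [Or.inl rfl, Or.inr (Or.inl rfl), absurd hc ku, Or.inr (Or.inr k5)]

theorem two (a : X) : ∃ K L, K ≠ L ∧ Cl h K ∧ Cl h L ∧ a ∈ K ∧ a ∈ L ∧
    ∀ M, Cl h M → a ∈ M → M = K ∨ M = L := by
  have n8 : (univ.filter fun c => h a c = 1).card = 8 := by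
    have e : ∀ c, (if h a c = 1 then 1 else 0 : ℤ) = h a c - (if a = c then 2 else 0) := fun c => by
      by_cases c1 : a = c
      · subst c1; simp [H.diag]
      rcases H.off a c c1 with e1 | e1 <;> simp [e1, c1]
    have := sum_congr rfl fun c (_ : c ∈ univ) => e c
    simp only [sum_boole, sum_sub_distrib, H.sum1, sum_ite_eq, mem_univ, if_true] at this
    omega
  have un : ∀ {K L c}, Cl h K → Cl h L → a ∈ K → a ∈ L → c ∈ K.erase a → c ∈ L.erase a → K = L :=
    fun {K L c} k l k1 l1 k2 l2 => by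
      rw [mem_erase] at k2 l2
      obtain ⟨-, M, -, -, -, -, -, m⟩ := H.edge (k.2 a k1 c k2.2 k2.1.symm)
      rw [m K k k1 k2.2, m L l l1 l2.2]
  obtain ⟨b, hb⟩ := card_pos.1 (n8 ▸ (by norm_num : 0 < 8))
  obtain ⟨u, K, k1, k2, -, k3, k4, -⟩ := H.edge (mem_filter.1 hb).2
  obtain ⟨-, L, l1, l2, l3, -⟩ := H.edge k3
  have kl : K ≠ L := fun e => k4 (e ▸ l3)
  refine ⟨K, L, kl, k1, l1, k2, l2, fun M m1 m2 => ?_⟩
  have e : K.erase a ∪ L.erase a = univ.filter fun c => h a c = 1 := by
    refine eq_of_subset_of_card_le (fun c hc => mem_filter.2 ⟨mem_univ _, ?_⟩) (by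
      rw [n8, card_union_of_disjoint (disjoint_left.2 fun c c1 c2 => kl (un k1 l1 k2 l2 c1 c2)),
        card_erase_of_mem k2, card_erase_of_mem l2, k1.1, l1.1])
    simp only [mem_union, mem_erase] at hc
    exact hc.elim (fun c1 => k1.2 a k2 c c1.2 c1.1.symm) fun c1 => l1.2 a l2 c c1.2 c1.1.symm
  obtain ⟨c, hc⟩ := card_pos.1 (show 0 < (M.erase a).card by rw [card_erase_of_mem m2, m1.1]; norm_num)
  have : c ∈ K.erase a ∪ L.erase a := by
    rw [e, mem_filter]
    exact ⟨mem_univ _, m1.2 a m2 c (mem_erase.1 hc).2 (mem_erase.1 hc).1.symm⟩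
  exact (mem_union.1 this).imp (un m1 k1 m2 k2 hc) (un m1 l1 m2 l2 hc)

theorem star {K : Finset X} (k : Cl h K) (y : X) : ∑ a ∈ K, h a y = 2 + if y ∈ K then 4 else 0 := by
  have i : ∀ y ∈ K, ∑ a ∈ K, h a y = 6 := fun y hy => by
    rw [← add_sum_erase _ _ hy, H.diag, sum_congr rfl fun a ha =>
      k.2 a (mem_erase.1 ha).2 y hy (mem_erase.1 ha).1, sum_const, card_erase_of_mem hy, k.1]
    rfl
  have s1 : ∑ c, ∑ a ∈ K, h a c = 50 := by
    rw [sum_comm]; simp [H.sum1, k.1]
  have s2 : ∑ c, (∑ a ∈ K, h a c) * (∑ a ∈ K, h a c) = 220 := by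
    simp only [sum_mul_sum]
    rw [sum_comm, sum_congr rfl fun a _ => sum_comm]
    simp only [H.sum2, sum_add_distrib, ← mul_sum, sum_const, k.1]
    rw [sum_comm, sum_congr rfl i, sum_const, k.1]
    rfl
  have s3 : ∑ c, (∑ a ∈ K, h a c) * (if c ∈ K then 4 else 0) = 120 := by
    simp only [mul_ite, mul_zero, ← sum_filter, filter_mem_eq_inter, univ_inter]
    rw [sum_congr rfl fun c hc => by rw [i c hc], sum_const, k.1]
    rfl
  have s4 : ∑ c, (if c ∈ K then 4 else 0 : ℤ) = 20 := by
    simp [← sum_filter, k.1]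
  refine sub_eq_zero.1 (zero_of_sq (u := fun c => ∑ a ∈ K, h a c - (2 + if c ∈ K then 4 else 0)) ?_ y)
  have e : ∀ c, (∑ a ∈ K, h a c - (2 + if c ∈ K then 4 else 0)) ^ 2 =
      (∑ a ∈ K, h a c) * (∑ a ∈ K, h a c) - 4 * ∑ a ∈ K, h a c -
      2 * ((∑ a ∈ K, h a c) * (if c ∈ K then 4 else 0)) + 4 + 8 * (if c ∈ K then 4 else 0) := fun c => by
    split_ifs <;> ring
  simp only [e, sum_add_distrib, sum_sub_distrib, ← mul_sum, s1, s2, s3, s4, sum_const, card_univ, H.card]
  norm_num

end T6

theorem exists_quot {τ : Type*} [Fintype τ] {g : τ → τ → ℤ} (symm : ∀ a b, g a b = g b a)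
    (diag : ∀ a, g a a = 2) (le : ∀ a b, g a b ≤ 2) (card : Fintype.card τ = 60)
    (sum1 : ∀ a, ∑ c, g a c = 40) (sum2 : ∀ a b, ∑ c, g a c * g b c = 16 * g a b + 16) :
    ∃ (h : Set.range g → Set.range g → ℤ) (_ : Fintype (Set.range g)) (_ : DecidableEq (Set.range g)),
      T6 h ∧ (∀ a b, h (Set.rangeFactorization g a) (Set.rangeFactorization g b) = g a b) ∧
      ∀ φ : Set.range g → ℤ, ∑ c, φ (Set.rangeFactorization g c) = 4 * ∑ r, φ r := by
  classical
  have ge : ∀ a b, 0 ≤ g a b := fun a b => by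
    have a2 : 0 ≤ ∑ c, (3 * (g a c + g b c) - 4) ^ 2 := sum_nonneg fun _ _ => sq_nonneg _
    have e2 : ∀ c, (3 * (g a c + g b c) - 4) ^ 2 = 9 * (g a c * g a c) + 18 * (g a c * g b c) +
      9 * (g b c * g b c) - 24 * g a c - 24 * g b c + 16 := fun c => by ring
    simp only [e2, sum_add_distrib, sum_sub_distrib, ← mul_sum, sum1, sum2, diag,
      sum_const, card_univ, card, nsmul_eq_mul] at a2
    push_cast at a2
    omega
  have eq : ∀ a b, g a b = 2 ↔ g b = g a := fun a b => ⟨fun e => funext fun c => by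
    refine sub_eq_zero.1 (zero_of_sq (u := fun c => g b c - g a c) ?_ c)
    have : ∀ c, (g b c - g a c) ^ 2 = g a c * g a c - 2 * (g a c * g b c) + g b c * g b c :=
      fun c => by ring
    simp only [this, sum_add_distrib, sum_sub_distrib, ← mul_sum, sum2, diag, e]
    norm_num, fun e => by rw [← e, diag]⟩
  have fib : ∀ a, (univ.filter fun c => g c = g a).card = 4 := fun a => by
    have e : ∀ c, 2 * (if g c = g a then 1 else 0 : ℤ) = g a c * g a c - g a c := fun c => by
      simp only [← eq]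
      have := ge a c
      have := le a c
      generalize g a c = n at *
      interval_cases n <;> simp
    have := sum_congr rfl fun c (_ : c ∈ univ) => e c
    simp only [← mul_sum, sum_boole, sum_sub_distrib, sum1, sum2, diag] at this
    omega
  have key : ∀ φ : Set.range g → ℤ, ∑ c, φ (Set.rangeFactorization g c) = 4 * ∑ r, φ r := fun φ => by
    rw [← sum_fiberwise' univ (Set.rangeFactorization g), mul_sum]
    refine sum_congr rfl fun r _ => ?_
    obtain ⟨_, a, rfl⟩ := r
    rw [sum_const, nsmul_eq_mul, ← Nat.cast_ofNat, ← fib a]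
    congr 3
    ext c
    simp only [mem_filter, mem_univ, true_and]
    exact Subtype.ext_iff
  have hh : ∀ a b, (Set.rangeFactorization g a).1 (Set.rangeFactorization g b).2.choose = g a b :=
    fun a b => by
      have := congrFun (Set.rangeFactorization g b).2.choose_spec a
      exact (symm _ _).trans (this.trans (symm _ _))
  have sj := Set.rangeFactorization_surjective (f := g)
  refine ⟨fun r s => r.1 s.2.choose, inferInstance, inferInstance, ⟨?_, ?_, ?_, ?_, ?_, ?_⟩, hh, key⟩
  · exact sj.forall₂.2 fun a b => by rw [hh, hh, symm]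
  · exact sj.forall.2 fun a => by rw [hh, diag]
  · refine sj.forall₂.2 fun a b k => ?_
    have := ge a b
    have := le a b
    have : g a b ≠ 2 := fun e => k (Subtype.ext ((eq a b).1 e).symm)
    rw [hh]
    omega
  · have := key fun _ => 1
    simp only [sum_const, card_univ, card, nsmul_eq_mul] at this
    omega
  · refine sj.forall.2 fun a => ?_
    have := key fun s => (Set.rangeFactorization g a).1 s.2.choose
    simp only [hh, sum1] at this
    omega
  · refine sj.forall₂.2 fun a b => ?_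
    have := key fun s => (Set.rangeFactorization g a).1 s.2.choose * (Set.rangeFactorization g b).1 s.2.choose
    simp only [hh, sum2] at this
    rw [hh]
    omega

end Cfsg.Agent.H78.T6
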